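import Mathlib
import Cfsg.Agent.H92.RtPhi

/-! Piece K0 of S2755 (helper64 for helper92) -/

set_option autoImplicit false
set_option linter.unusedVariables false

namespace Cfsg.Agent.H64.Rt

open Cfsg Cfsg.Agent Cfsg.Agent.H92.Rt

theorem finsum_subgroup {K : Type*} [Group K] [Finite K] (H : Subgroup K) [Fintype H] (f : K → ℂ) :
    ∑ᶠ u ∈ (H : Set K), f u = ∑ x : H, f x := by
  rw [← finsum_set_coe_eq_finsum_mem, finsum_eq_sum_of_fintype]
  rfl

theorem finsum_diff {K : Type*} [Group K] [Finite K] (H L : Subgroup K) [Fintype H] [Fintype L] (hLH : L ≤ H) (f : K → ℂ) :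
    ∑ᶠ u ∈ {u : K | u ∈ H ∧ u ∉ L}, f u = (∑ x : H, f x) - ∑ x : L, f x := by
  rw [← finsum_subgroup H f, ← finsum_subgroup L f]
  have h1 : (H : Set K) = {u : K | u ∈ H ∧ u ∉ L} ∪ (L : Set K) := by
    ext u
    constructor
    · intro hu
      by_cases h2 : u ∈ L
      · exact Or.inr h2
      · exact Or.inl ⟨hu, h2⟩
    · rintro (hu | hu)
      · exact hu.1
      · exact hLH hu
  have h2 : Disjoint {u : K | u ∈ H ∧ u ∉ L} (L : Set K) := by
    rw [Set.disjoint_left]
    intro u hu hL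
    exact hu.2 hL
  rw [h1, finsum_mem_union h2 (Set.toFinite _) (Set.toFinite _), add_sub_cancel_right]

theorem finsum_ne_one {K : Type*} [Group K] [Finite K] (H : Subgroup K) [Fintype H] (f : K → ℂ) :
    ∑ᶠ u ∈ {u : K | u ∈ H ∧ u ≠ 1}, f u = (∑ x : H, f x) - f 1 := by
  classical
  haveI : Fintype (⊥ : Subgroup K) := Fintype.ofFinite _
  have h1 := finsum_diff H ⊥ bot_le f
  have h2 : ∑ x : (⊥ : Subgroup K), f x = f 1 := by
    have : Unique (⊥ : Subgroup K) := inferInstance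
    rw [Fintype.sum_unique]
    exact congrArg f (Subgroup.mem_bot.1 (default : (⊥ : Subgroup K)).2)
  rw [h2] at h1
  rw [← h1]
  apply finsum_mem_congr
  · ext u
    rfl
  · intro u _
    rfl

/-- [K0] -/
theorem sum_formula {K : Type*} [Group K] [Fintype K] {q m : ℕ} {U A : Subgroup K} {k s r : K} (D : KD q m U A k s r)
    [Fintype U] [Fintype A] [Fintype (Subgroup.normalizer (U : Set K))]
    (f : K → ℂ) (hcl : ∀ g y : K, f (g * y * g⁻¹) = f y) (hsup : ∀ y : K, ¬ Odd (orderOf y) → f y = 0) :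
    2 * ∑ y : K, f y = 2 * f 1 + 2 * ((q : ℂ) + 1) * ((∑ x : U, f x) - f 1) +
      ((q : ℂ) + 1) * ((∑ b : Subgroup.normalizer (U : Set K), f b) - ∑ x : U, f x) +
      (q : ℂ) * ((q : ℂ) - 1) * ((∑ a : A, f a) - f 1) := by
  have h1 := D.sumOdd f hcl hsup
  rw [finsum_ne_one U f, finsum_ne_one A f,
    finsum_diff (Subgroup.normalizer (U : Set K)) U Subgroup.le_normalizer f] at h1
  exact h1

end Cfsg.Agent.H64.Rt
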