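import Mathlib
import Cfsg.Prelude.Def_OddOrderLocal
import Cfsg.Agent.FT.Base

set_option autoImplicit false

/-! By the odd order theorem there is no minimal simple group of odd order. -/

namespace Cfsg.Agent.H64

theorem not_minSimpleOdd {G : Type*} [Group G] [Finite G] (hG : Cfsg.IsMinSimpleOddOrder G) : False := by
  haveI : IsSimpleGroup G := hG.2.1
  apply hG.2.2.1
  refine ⟨⟨fun a b => ?_⟩⟩
  exact IsSimpleGroup.comm_iff_isSolvable.2 (Cfsg.Agent.FT.solvable_of_odd hG.1) a b

end Cfsg.Agent.H64
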