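import Cfsg.Agent.H90.Large
import Cfsg.Agent.FStar.CompAct
import Cfsg.Agent.H49.Core

/-!
Large extraspecial 2-subgroups and components.
-/

set_option autoImplicit false
set_option linter.style.haveILetI false

namespace Cfsg.Agent.H64.LX

open Cfsg.Agent.H90 (XS PL)
open Cfsg.Agent.FStar
open scoped commutatorElement

section fixed

variable {G : Type*} [Group G] [Finite G]

/-- a 2-group normalising a subgroup with an involution fixes a nontrivial element of it -/
theorem exists_fixed {K P : Subgroup G} (hP : IsPGroup 2 P)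
    (hPK : P ≤ Subgroup.normalizer (K : Set G)) {s : G} (hsK : s ∈ K) (hs1 : s ≠ 1)
    (hsp : IsPGroup 2 (Subgroup.zpowers s)) : ∃ r ∈ K, r ≠ 1 ∧ ∀ y ∈ P, r * y = y * r := by
  haveI : Fact (Nat.Prime 2) := ⟨Nat.prime_two⟩
  set M := K ⊔ P with hM
  have hKM : K ≤ M := le_sup_left
  have hPM : P ≤ M := le_sup_right
  have hMn : M ≤ Subgroup.normalizer (K : Set G) := sup_le Subgroup.le_normalizer hPK
  have hP' : IsPGroup 2 (P.subgroupOf M) := hP.comap_of_injective M.subtype M.subtype_injective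
  obtain ⟨R, hR⟩ := hP'.exists_le_sylow
  set S : Subgroup G := (R : Subgroup M).map M.subtype with hS
  have hSp : IsPGroup 2 S := R.isPGroup'.map _
  have hPS : P ≤ S := by
    intro y hy
    exact ⟨⟨y, hPM hy⟩, hR (by rw [Subgroup.mem_subgroupOf]; exact hy), rfl⟩
  have hSM : S ≤ M := Subgroup.map_subtype_le _
  obtain ⟨m, hmM, hm⟩ := H21.exists_conj_mem_sylow_subgroup M R (Subgroup.zpowers s) hsp
    (by rw [Subgroup.zpowers_le]; exact hKM hsK)
  have hsm : m * s * m⁻¹ ∈ S := hm s (Subgroup.mem_zpowers s)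
  have hsK' : m * s * m⁻¹ ∈ K := (Subgroup.mem_normalizer_iff.1 (hMn hmM) s).1 hsK
  have hsm1 : m * s * m⁻¹ ≠ 1 := by
    intro h
    apply hs1
    have := congrArg (fun t => m⁻¹ * t * m) h
    simpa [mul_assoc] using this
  have hSn : S ≤ Subgroup.normalizer (K : Set G) := hSM.trans hMn
  have hfin : ({T : Subgroup G | T ≤ S ⊓ K ∧ S ≤ Subgroup.normalizer (T : Set G) ∧ T ≠ ⊥} : Set (Subgroup G)).Finite :=
    Set.toFinite _
  obtain ⟨T, hT⟩ := hfin.exists_minimal ⟨S ⊓ K, le_rfl, by
    refine (le_inf ?_ ?_).trans (Subgroup.inf_normalizer_le_normalizer_inf)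
    · exact Subgroup.le_normalizer
    · exact hSn, fun h => hsm1 (by
        have : m * s * m⁻¹ ∈ S ⊓ K := ⟨hsm, hsK'⟩
        rwa [h, Subgroup.mem_bot] at this)⟩
  obtain ⟨hTSK, hST, hTb⟩ := hT.prop
  have hTS : T ≤ S := hTSK.trans inf_le_left
  have hTK : T ≤ K := hTSK.trans inf_le_right
  haveI : Group.IsNilpotent S := hSp.isNilpotent
  have h1 : ¬ T ≤ ⁅T, S⁆ := H49.commutator_ne_self_of_nilpotent hTS hTb
  have h2 : ⁅T, S⁆ ≤ T := by
    rw [Subgroup.commutator_comm]
    exact Subgroup.le_normalizer_iff_commutator_le_right.1 hST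
  have h3 : ⁅T, S⁆ = ⊥ := by
    by_contra hc
    apply h1
    apply hT.le_of_le _ h2
    refine ⟨h2.trans hTSK, ?_, hc⟩
    exact Subgroup.normalizer_commutator_ge_right T S
  obtain ⟨r, hrT, hr1⟩ : ∃ r : G, r ∈ T ∧ r ≠ 1 := by
    obtain ⟨a, ha⟩ := Subgroup.ne_bot_iff_exists_ne_one.1 hTb
    exact ⟨(a : G), a.2, fun h => ha (Subtype.ext h)⟩
  refine ⟨r, hTK hrT, hr1, fun y hy => ?_⟩
  have h4 : ⁅r, y⁆ ∈ (⊥ : Subgroup G) := by
    rw [← h3]; exact Subgroup.commutator_mem_commutator hrT (hPS hy)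
  rw [Subgroup.mem_bot, commutatorElement_eq_one_iff_mul_comm] at h4
  exact h4

end fixed

variable {G : Type*} [Group G] [Finite G] {Q : Subgroup G} {z : G}

theorem mem_of_inv (h : PL Q z) (hQ : Cfsg.IsLargeExtraspecial Q) {K : Subgroup G} (hK : K ≠ ⊥)
    (hQK : Q ≤ Subgroup.normalizer (K : Set G)) : z ∈ K := by
  haveI : Fact (Nat.Prime 2) := ⟨Nat.prime_two⟩
  rcases Nat.even_or_odd (Nat.card K) with he | ho
  · obtain ⟨s, hs⟩ := exists_prime_orderOf_dvd_card' (G := K) 2 he.two_dvd
    have hs1 : (s : G) ≠ 1 := by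
      intro h1
      have : s = 1 := Subtype.ext h1
      rw [this, orderOf_one] at hs; omega
    have hso : orderOf (s : G) = 2 := by rw [Subgroup.orderOf_coe]; exact hs
    obtain ⟨r, hrK, hr1, hr⟩ := exists_fixed h.isPGroup hQK s.2 hs1
      (IsPGroup.of_card (n := 1) (by rw [Nat.card_zpowers, hso, pow_one]))
    rcases h.cent r hr with h1 | h1
    · exact absurd h1 hr1
    · rw [← h1]; exact hrK
  · exact absurd (hQ.2.2.2 K ho hQK) hK

omit [Finite G] in
theorem zpowers_two (h : PL Q z) {x : G} (hx : x = 1 ∨ x = z) : x ∈ Subgroup.zpowers z := by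
  rcases hx with rfl | rfl
  · exact one_mem _
  · exact Subgroup.mem_zpowers x

theorem comp_not_comm (h : PL Q z) {L : Subgroup G} (hL : Cfsg.IsComponent L) : ¬ ∀ x ∈ L, x * z = z * x := by
  intro hc
  have hn : L ≤ Subgroup.normalizer (Q : Set G) := by
    intro x hx
    rw [Subgroup.mem_normalizer_iff]
    intro q
    constructor
    · intro hq; exact h.norm x (hc x hx) q hq
    · intro hq
      have := h.norm x⁻¹ (hc _ (inv_mem hx)) _ hq
      simpa [mul_assoc] using this
  haveI : Fact (Nat.Prime 2) := ⟨Nat.prime_two⟩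
  haveI : Group.IsNilpotent Q := h.isPGroup.isNilpotent
  have h1 := component_commute_solvable hL (H := Q) inferInstance hn
  apply commutator_self_ne_bot hL.2
  rw [Subgroup.commutator_eq_bot_iff_le_centralizer] at h1 ⊢
  have h2 : L ≤ Subgroup.zpowers z := by
    intro x hx
    apply zpowers_two h
    apply h.cent x
    intro q hq
    exact (Subgroup.mem_centralizer_iff.1 (h1 hx) q hq).symm
  intro x hx
  rw [Subgroup.mem_centralizer_iff]
  intro y hy
  obtain ⟨i, hi⟩ := h2 hx
  obtain ⟨j, hj⟩ := h2 hy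
  have hi' : z ^ i = x := hi
  have hj' : z ^ j = y := hj
  rw [← hi', ← hj', ← zpow_add, ← zpow_add, add_comm]

theorem z_mem_orb (h : PL Q z) (hQ : Cfsg.IsLargeExtraspecial Q) {L : Subgroup G} (hL : Cfsg.IsComponent L) :
    z ∈ orb Q L := by
  apply mem_of_inv h hQ _ (le_normalizer_orb Q L)
  intro h1
  have h2 := self_le_orb Q L
  rw [h1, le_bot_iff] at h2
  exact ne_bot hL.2 h2

/-- `Q` is transitive on the components -/
theorem comp_orbit (h : PL Q z) (hQ : Cfsg.IsLargeExtraspecial Q) {L K : Subgroup G} (hL : Cfsg.IsComponent L)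
    (hK : Cfsg.IsComponent K) : ∃ y ∈ Q, K = L.map (MulAut.conj y).toMonoidHom := by
  by_contra hcon
  push Not at hcon
  apply comp_not_comm h hK
  have h1 : orb Q L ≤ Subgroup.centralizer (K : Set G) := by
    rw [orb_le_iff]
    intro y hy
    rw [← Subgroup.commutator_eq_bot_iff_le_centralizer]
    exact component_commute ((isComponent_conj y).2 hL) hK (hcon y hy).symm
  intro x hx
  exact Subgroup.mem_centralizer_iff.1 (h1 (z_mem_orb h hQ hL)) x hx

theorem z_mem_layer (h : PL Q z) (hQ : Cfsg.IsLargeExtraspecial Q) {L : Subgroup G} (hL : Cfsg.IsComponent L) :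
    z ∈ Cfsg.layer G := orb_le_layer hL (z_mem_orb h hQ hL)

/-- the normal closure of `z` is the layer, if there is a component -/
theorem normalClosure_eq (h : PL Q z) (hQ : Cfsg.IsLargeExtraspecial Q) {L : Subgroup G} (hL : Cfsg.IsComponent L) :
    Subgroup.normalClosure ({z} : Set G) = Cfsg.layer G := by
  apply le_antisymm
  · apply Subgroup.normalClosure_le_normal
    rw [Set.singleton_subset_iff]
    exact z_mem_layer h hQ hL
  · rw [layer_le_iff]
    intro K hK
    have hn : (Subgroup.normalClosure ({z} : Set G)).Normal := inferInstance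
    rcases component_le_or_commute hK hn.isSubnormal with h1 | h1
    · exact h1
    · exfalso
      apply comp_not_comm h hK
      rw [Subgroup.commutator_eq_bot_iff_le_centralizer] at h1
      intro x hx
      have hz : z ∈ Subgroup.normalClosure ({z} : Set G) := Subgroup.subset_normalClosure (Set.mem_singleton z)
      exact (Subgroup.mem_centralizer_iff.1 (h1 hx) z hz).symm

theorem oddCore_bot (hQ : Cfsg.IsLargeExtraspecial Q) {N : Subgroup G} (hN : N.Normal) (ho : Odd (Nat.card N)) : N = ⊥ := by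
  apply hQ.2.2.2 N ho
  rw [Subgroup.normalizer_eq_top]
  exact le_top

theorem pCore_bot (hQ : Cfsg.IsLargeExtraspecial Q) {q : ℕ} (hq : q.Prime) (hq2 : q ≠ 2) : Cfsg.pCore q G = ⊥ := by
  apply oddCore_bot hQ inferInstance
  haveI : Fact q.Prime := ⟨hq⟩
  obtain ⟨n, hn⟩ := IsPGroup.iff_card.1 (Solv.pCore_isPGroup (G := G) q)
  rw [hn]
  exact (hq.odd_of_ne_two hq2).pow

theorem fitting_eq (hQ : Cfsg.IsLargeExtraspecial Q) : Cfsg.fittingSubgroup G = Cfsg.pCore 2 G := by
  rw [Solv.fitting_eq_iSup_pCore]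
  apply le_antisymm
  · apply iSup_le
    intro q
    by_cases hq : (q : ℕ) = 2
    · rw [hq]
    · rw [pCore_bot hQ q.2 hq]; exact bot_le
  · exact le_iSup (fun q : Nat.Primes => Cfsg.pCore (q : ℕ) G) ⟨2, Nat.prime_two⟩

/-- the case `O_2(G) ≠ 1` -/
theorem case_core (h : PL Q z) (hQ : Cfsg.IsLargeExtraspecial Q) (hc : Cfsg.pCore 2 G ≠ ⊥) :
    IsMulCommutative ↥(Subgroup.normalClosure ({z} : Set G)) ∧ Cfsg.generalizedFittingSubgroup G = Cfsg.pCore 2 G := by
  haveI : Fact (Nat.Prime 2) := ⟨Nat.prime_two⟩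
  have hn : ∀ K : Subgroup G, K.Normal → K ≠ ⊥ → z ∈ K := fun K hK hKb =>
    mem_of_inv h hQ hKb (by rw [Subgroup.normalizer_eq_top]; exact le_top)
  constructor
  · set C : Subgroup G := (Subgroup.center ↥(Cfsg.pCore 2 G)).map (Cfsg.pCore 2 G).subtype with hC
    have hCn : C.Normal := inferInstance
    have hCb : C ≠ ⊥ := by
      intro h1
      have hp := Solv.pCore_isPGroup (G := G) 2
      haveI : Nontrivial ↥(Cfsg.pCore 2 G) := (Subgroup.nontrivial_iff_ne_bot _).2 hc
      have h2 := hp.center_nontrivial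
      obtain ⟨c, hc1⟩ := exists_ne (1 : Subgroup.center ↥(Cfsg.pCore 2 G))
      apply hc1
      have h3 : ((c : ↥(Cfsg.pCore 2 G)) : G) ∈ C := ⟨_, c.2, rfl⟩
      rw [h1, Subgroup.mem_bot] at h3
      exact Subtype.ext (Subtype.ext h3)
    have hzC := hn C hCn hCb
    have hle : Subgroup.normalClosure ({z} : Set G) ≤ C := by
      apply Subgroup.normalClosure_le_normal
      rwa [Set.singleton_subset_iff]
    refine ⟨⟨fun a b => ?_⟩⟩
    obtain ⟨x, hx, hxa⟩ := hle a.2
    obtain ⟨y, hy, hyb⟩ := hle b.2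
    have h1 := Subgroup.mem_center_iff.1 hx y
    apply Subtype.ext
    change (a : G) * b = b * a
    rw [← hxa, ← hyb]
    exact (congrArg Subtype.val h1).symm
  · have hl : Cfsg.layer G = ⊥ := by
      by_contra hne
      obtain ⟨L, hL⟩ : ∃ L : Subgroup G, Cfsg.IsComponent L := by
        by_contra hcon
        push Not at hcon
        apply hne
        rw [eq_bot_iff, layer_le_iff]
        intro L hL
        exact absurd hL (hcon L)
      apply comp_not_comm h hL
      have h1 := component_commute_fitting hL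
      rw [Subgroup.commutator_eq_bot_iff_le_centralizer, fitting_eq hQ] at h1
      intro x hx
      exact (Subgroup.mem_centralizer_iff.1 (h1 hx) z (hn _ inferInstance hc)).symm
    rw [Cfsg.generalizedFittingSubgroup, hl, bot_sup_eq, fitting_eq hQ]

/-- the case `O_2(G) = 1` : there is a component, and `F*(G)` is the layer -/
theorem case_comp (h : PL Q z) (hQ : Cfsg.IsLargeExtraspecial Q) (hc : Cfsg.pCore 2 G = ⊥) :
    Cfsg.fittingSubgroup G = ⊥ ∧ Cfsg.generalizedFittingSubgroup G = Cfsg.layer G ∧ ∃ L : Subgroup G, Cfsg.IsComponent L := by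
  have hf : Cfsg.fittingSubgroup G = ⊥ := by rw [fitting_eq hQ, hc]
  have hg : Cfsg.generalizedFittingSubgroup G = Cfsg.layer G := by
    rw [Cfsg.generalizedFittingSubgroup, hf, sup_bot_eq]
  refine ⟨hf, hg, ?_⟩
  by_contra hcon
  push Not at hcon
  have hl : Cfsg.layer G = ⊥ := by
    rw [eq_bot_iff, layer_le_iff]
    intro L hL
    exact absurd hL (hcon L)
  have h1 := centralizer_generalizedFitting_le (G := G)
  rw [hg, hl] at h1
  have h2 : z ∈ Subgroup.centralizer ((⊥ : Subgroup G) : Set G) := by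
    rw [Subgroup.mem_centralizer_iff]
    intro x hx
    have : x = 1 := hx
    rw [this, one_mul, mul_one]
  have h3 := h1 h2
  rw [Subgroup.mem_bot] at h3
  exact h.ne_one h3

/-- the components are simple when `F(G) = 1` -/
theorem comp_center (hf : Cfsg.fittingSubgroup G = ⊥) {L : Subgroup G} (hL : Cfsg.IsComponent L) {x : G}
    (hx : x ∈ L) (hc : ∀ y ∈ L, x * y = y * x) : x = 1 := by
  have h1 : x ∈ Cfsg.layer G ⊓ Subgroup.centralizer (Cfsg.layer G : Set G) := by
    refine Subgroup.mem_inf.2 ⟨component_le_layer hL hx, ?_⟩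
    have h2 : Cfsg.layer G ≤ Subgroup.centralizer ({x} : Set G) := by
      rw [layer_le_iff]
      intro K hK
      by_cases hKL : K = L
      · rw [hKL]
        intro y hy
        rw [Subgroup.mem_centralizer_singleton_iff]
        exact (hc y hy).symm
      · have h3 := component_commute hK hL hKL
        rw [Subgroup.commutator_eq_bot_iff_le_centralizer] at h3
        intro y hy
        rw [Subgroup.mem_centralizer_singleton_iff]
        exact (Subgroup.mem_centralizer_iff.1 (h3 hy) x hx).symm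
    rw [Subgroup.mem_centralizer_iff]
    intro y hy
    exact Subgroup.mem_centralizer_singleton_iff.1 (h2 hy)
  rw [← layer_inf_fitting, hf, inf_bot_eq, Subgroup.mem_bot] at h1
  exact h1

theorem comp_simple (hf : Cfsg.fittingSubgroup G = ⊥) {L : Subgroup G} (hL : Cfsg.IsComponent L) :
    IsSimpleGroup ↥L ∧ ¬ IsMulCommutative ↥L := by
  have hc : Subgroup.center ↥L = ⊥ := by
    rw [eq_bot_iff]
    intro x hx
    rw [Subgroup.mem_bot]
    apply Subtype.ext
    apply comp_center hf hL x.2
    intro y hy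
    exact (congrArg Subtype.val (Subgroup.mem_center_iff.1 hx ⟨y, hy⟩)).symm
  have hne := nontrivial_of_isQuasisimple hL.2
  constructor
  · refine ⟨?_⟩
    intro N hN
    rcases eq_top_or_le_center_of_normal hL.2 N hN with h1 | h1
    · exact Or.inr h1
    · left; rw [hc, le_bot_iff] at h1; exact h1
  · intro hcm
    have h1 := center_ne_top_of_isQuasisimple hL.2
    apply h1
    rw [Subgroup.center_eq_top_iff]
    exact hcm

end Cfsg.Agent.H64.LX
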