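import Cfsg.Agent.H64.LX1
import Cfsg.Agent.H17.Klein
import Cfsg.Agent.Solv.Frattini
import Cfsg.Agent.S0542

/-!
Large extraspecial 2-subgroups: two components.
-/

set_option autoImplicit false
set_option linter.style.haveILetI false

namespace Cfsg.Agent.H64.LX

open Cfsg.Agent.H90 (XS PL)
open Cfsg.Agent.FStar
open scoped commutatorElement

variable {G : Type*} [Group G] [Finite G] {Q : Subgroup G} {z : G}

omit [Finite G] in
theorem conj_mem_map {L : Subgroup G} {u x : G} (hx : x ∈ L) : u * x * u⁻¹ ∈ L.map (MulAut.conj u).toMonoidHom :=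
  ⟨x, hx, rfl⟩

omit [Finite G] in
theorem mem_map_conj_iff {L : Subgroup G} {u x : G} : x ∈ L.map (MulAut.conj u).toMonoidHom ↔ u⁻¹ * x * u ∈ L := by
  constructor
  · rintro ⟨y, hy, rfl⟩
    have : u⁻¹ * ((MulAut.conj u).toMonoidHom y) * u = y := by
      simp [mul_assoc]
    rw [this]; exact hy
  · intro h
    refine ⟨_, h, ?_⟩
    simp [mul_assoc]

/-- the setting: `F(G) = 1`, `L` a component, `z = z₁ c` -/
structure TC (Q : Subgroup G) (z : G) (L : Subgroup G) (z₁ : G) : Prop where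
  h : PL Q z
  large : Cfsg.IsLargeExtraspecial Q
  fit : Cfsg.fittingSubgroup G = ⊥
  comp : Cfsg.IsComponent L
  mem : z₁ ∈ L
  cen : z₁⁻¹ * z ∈ Subgroup.centralizer (L : Set G)

theorem exists_tc (h : PL Q z) (hQ : Cfsg.IsLargeExtraspecial Q) (hf : Cfsg.fittingSubgroup G = ⊥) {L : Subgroup G}
    (hL : Cfsg.IsComponent L) : ∃ z₁ : G, TC Q z L z₁ := by
  have h1 := layer_le_component_sup_centralizer hL (z_mem_layer h hQ hL)
  have hle : L ≤ Subgroup.normalizer ((Subgroup.centralizer (L : Set G) : Subgroup G) : Set G) :=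
    Subgroup.le_normalizer.trans (normalizer_le_normalizer_cent L)
  obtain ⟨a, ha, b, hb, hab⟩ := mem_sup_of_le_normalizer hle h1
  refine ⟨a, h, hQ, hf, hL, ha, ?_⟩
  rw [← hab, inv_mul_cancel_left]
  exact hb

namespace TC

variable {L : Subgroup G} {z₁ : G}

theorem eq_one (t : TC Q z L z₁) {x : G} (hx : x ∈ L) (hc : x ∈ Subgroup.centralizer (L : Set G)) : x = 1 :=
  comp_center t.fit t.comp hx (fun y hy => (Subgroup.mem_centralizer_iff.1 hc y hy).symm)

theorem comm_iff (t : TC Q z L z₁) {x : G} (hx : x ∈ L) : x * z₁ = z₁ * x ↔ x * z = z * x := by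
  have h1 : x * (z₁⁻¹ * z) = (z₁⁻¹ * z) * x := Subgroup.mem_centralizer_iff.1 t.cen x hx
  have hz : z = z₁ * (z₁⁻¹ * z) := by group
  constructor
  · intro h
    rw [hz, ← mul_assoc, h, mul_assoc, h1, ← mul_assoc]
  · intro h
    have h2 : x * z₁ * (z₁⁻¹ * z) = z₁ * x * (z₁⁻¹ * z) := by
      calc x * z₁ * (z₁⁻¹ * z) = x * z := by group
        _ = z * x := h
        _ = z₁ * ((z₁⁻¹ * z) * x) := by group
        _ = z₁ * (x * (z₁⁻¹ * z)) := by rw [h1]
        _ = z₁ * x * (z₁⁻¹ * z) := by group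
    exact mul_right_cancel h2

theorem z₁_ne (t : TC Q z L z₁) : z₁ ≠ 1 := by
  intro h1
  apply comp_not_comm t.h t.comp
  intro x hx
  rw [← t.comm_iff hx, h1, mul_one, one_mul]

theorem comm_zz (t : TC Q z L z₁) : z₁ * z = z * z₁ := (t.comm_iff t.mem).1 rfl

theorem z₁_sq (t : TC Q z L z₁) : z₁ * z₁ = 1 := by
  apply t.eq_one (mul_mem t.mem t.mem)
  have h1 : z₁ * z₁ = (z₁⁻¹ * z * (z₁⁻¹ * z))⁻¹ := by
    have h2 : z₁⁻¹ * z = z * z₁⁻¹ := by
      rw [inv_mul_eq_iff_eq_mul, ← mul_assoc, t.comm_zz, mul_assoc, mul_inv_cancel, mul_one]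
    have h3 : z₁⁻¹ * z * (z₁⁻¹ * z) = (z₁ * z₁)⁻¹ := by
      calc z₁⁻¹ * z * (z₁⁻¹ * z) = z₁⁻¹ * z * (z * z₁⁻¹) := by rw [← h2]
        _ = z₁⁻¹ * (z * z) * z₁⁻¹ := by group
        _ = (z₁ * z₁)⁻¹ := by rw [t.h.sq]; group
    rw [h3, inv_inv]
  rw [h1]
  exact inv_mem (mul_mem t.cen t.cen)

theorem orderOf_z₁ (t : TC Q z L z₁) : orderOf z₁ = 2 := by
  rw [orderOf_eq_prime_iff]
  exact ⟨by rw [pow_two]; exact t.z₁_sq, t.z₁_ne⟩

/-- some further element of `C_L(z)` -/
theorem exists_third (t : TC Q z L z₁) : ∃ x ∈ L, x * z = z * x ∧ x ≠ 1 ∧ x ≠ z₁ := by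
  haveI : Fact (Nat.Prime 2) := ⟨Nat.prime_two⟩
  obtain ⟨hs, hna⟩ := comp_simple t.fit t.comp
  set s : L := ⟨z₁, t.mem⟩ with hsdef
  have hso : orderOf s = 2 := by rw [← Subgroup.orderOf_coe]; exact t.orderOf_z₁
  have h2 : 2 ∣ Nat.card L := by rw [← hso]; exact orderOf_dvd_natCard s
  have hp : IsPGroup 2 (Subgroup.zpowers s) := IsPGroup.of_card (n := 1) (by rw [Nat.card_zpowers, hso, pow_one])
  obtain ⟨T, hT⟩ := hp.exists_le_sylow
  have hsT : s ∈ (T : Subgroup L) := hT (Subgroup.mem_zpowers s)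
  have hcyc := H17.not_isCyclic_sylow_two hna h2 T
  have key : ∃ x : L, x * s = s * x ∧ x ≠ 1 ∧ x ≠ s := by
    haveI : Nontrivial ↥(T : Subgroup L) := by
      refine ⟨⟨⟨s, hsT⟩, 1, fun h => ?_⟩⟩
      have : s = 1 := congrArg Subtype.val h
      rw [this, orderOf_one] at hso; omega
    have hcn := T.isPGroup'.center_nontrivial
    obtain ⟨c, hc⟩ := exists_ne (1 : Subgroup.center ↥(T : Subgroup L))
    have hcc : ∀ y ∈ (T : Subgroup L), ((c : ↥(T : Subgroup L)) : L) * y = y * c := by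
      intro y hy
      exact (congrArg Subtype.val (Subgroup.mem_center_iff.1 c.2 ⟨y, hy⟩)).symm
    have hc1 : ((c : ↥(T : Subgroup L)) : L) ≠ 1 := fun h => hc (Subtype.ext (Subtype.ext h))
    by_cases hcs : ((c : ↥(T : Subgroup L)) : L) = s
    · by_contra hcon
      push Not at hcon
      apply hcyc
      have h3 : (T : Subgroup L) ≤ Subgroup.zpowers s := by
        intro y hy
        by_cases hy1 : y = 1
        · rw [hy1]; exact one_mem _
        · have := hcon y (by rw [← hcs]; exact (hcc y hy).symm) hy1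
          rw [this]; exact Subgroup.mem_zpowers s
      have h4 : (T : Subgroup L) = Subgroup.zpowers s := le_antisymm h3 hT
      have h5 : IsCyclic ↥(T : Subgroup L) := by rw [h4]; infer_instance
      exact h5
    · exact ⟨c, hcc s hsT, hc1, hcs⟩
  obtain ⟨x, hx, hx1, hxs⟩ := key
  refine ⟨x, x.2, (t.comm_iff x.2).1 (congrArg Subtype.val hx), fun h => hx1 (Subtype.ext h), fun h => hxs (Subtype.ext h)⟩

theorem comm_mem (t : TC Q z L z₁) {x v : G} (hx : x * z = z * x) (hv : v ∈ Q) : x * (v * x⁻¹ * v⁻¹) ∈ Q := by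
  have : x * (v * x⁻¹ * v⁻¹) = (x * v * x⁻¹) * v⁻¹ := by group
  rw [this]
  exact mul_mem (t.h.norm x hx v hv) (inv_mem hv)

/-- no third component -/
theorem two_comp (t : TC Q z L z₁) {u : G} (hu : u ∈ Q) (huL : L.map (MulAut.conj u).toMonoidHom ≠ L)
    {K : Subgroup G} (hK : Cfsg.IsComponent K) : K = L ∨ K = L.map (MulAut.conj u).toMonoidHom := by
  by_contra hcon
  push Not at hcon
  obtain ⟨hKL, hKu⟩ := hcon
  have hLu : Cfsg.IsComponent (L.map (MulAut.conj u).toMonoidHom) := (isComponent_conj u).2 t.comp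
  -- commuting
  have hcomm : ∀ {A B : Subgroup G}, Cfsg.IsComponent A → Cfsg.IsComponent B → A ≠ B →
      A ≤ Subgroup.centralizer (B : Set G) := by
    intro A B hA hB hAB
    rw [← Subgroup.commutator_eq_bot_iff_le_centralizer]
    exact component_commute hA hB hAB
  obtain ⟨x, hx, hxz, hx1, hxz₁⟩ := t.exists_third
  set a := x * (u * x⁻¹ * u⁻¹) with ha
  have haQ : a ∈ Q := t.comm_mem hxz hu
  have hxu : u * x⁻¹ * u⁻¹ ∈ L.map (MulAut.conj u).toMonoidHom := conj_mem_map (inv_mem hx)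
  have haK : a ∈ Subgroup.centralizer (K : Set G) :=
    mul_mem (hcomm t.comp hK hKL.symm hx) (hcomm hLu hK hKu.symm hxu)
  have hznot : ∀ {N : Subgroup G}, Cfsg.IsComponent N → z ∉ Subgroup.centralizer (N : Set G) := by
    intro N hN hz
    exact comp_not_comm t.h hN (fun y hy => Subgroup.mem_centralizer_iff.1 hz y hy)
  have ha1 : a ≠ 1 := by
    intro h1
    apply hx1
    apply t.eq_one hx
    have h2 : x = (u * x⁻¹ * u⁻¹)⁻¹ := eq_inv_of_mul_eq_one_left h1
    rw [h2]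
    exact inv_mem (hcomm hLu t.comp huL hxu)
  have haz : a ≠ z := by
    intro h1
    apply hznot hK
    rw [← h1]; exact haK
  obtain ⟨r, hr, hra⟩ := t.h.exists_conj haQ ha1 haz
  -- r a r⁻¹ lies in L^r L^{ru}
  have hLr : Cfsg.IsComponent (L.map (MulAut.conj r).toMonoidHom) := (isComponent_conj r).2 t.comp
  have hLru : Cfsg.IsComponent (L.map (MulAut.conj (r * u)).toMonoidHom) := (isComponent_conj (r * u)).2 t.comp
  have hdec : ∀ {N : Subgroup G}, Cfsg.IsComponent N → N ≠ L.map (MulAut.conj r).toMonoidHom →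
      N ≠ L.map (MulAut.conj (r * u)).toMonoidHom → a * z ∈ Subgroup.centralizer (N : Set G) := by
    intro N hN h1 h2
    rw [← hra]
    have h3 : r * a * r⁻¹ = (r * x * r⁻¹) * ((r * u) * x⁻¹ * (r * u)⁻¹) := by rw [ha]; group
    rw [h3]
    exact mul_mem (hcomm hLr hN h1.symm (conj_mem_map hx)) (hcomm hLru hN h2.symm (conj_mem_map (inv_mem hx)))
  -- no component other than these two
  have hK' : K = L.map (MulAut.conj r).toMonoidHom ∨ K = L.map (MulAut.conj (r * u)).toMonoidHom := by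
    by_contra hcon
    push Not at hcon
    have h1 := hdec hK hcon.1 hcon.2
    apply hznot hK
    have h2 : z = a⁻¹ * (a * z) := by group
    rw [h2]; exact mul_mem (inv_mem haK) h1
  have hL' : L = L.map (MulAut.conj r).toMonoidHom ∨ L = L.map (MulAut.conj (r * u)).toMonoidHom := by
    by_contra hcon
    push Not at hcon
    have h1 := hdec t.comp hcon.1 hcon.2
    apply hxz₁
    have hw := hcomm hLu t.comp huL hxu
    -- a z = x z₁ (w c)
    have h2 : x * z₁ ∈ Subgroup.centralizer (L : Set G) := by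
      have h3 : (u * x⁻¹ * u⁻¹) * z₁ = z₁ * (u * x⁻¹ * u⁻¹) := (Subgroup.mem_centralizer_iff.1 hw z₁ t.mem).symm
      have h4 : a * z = (x * z₁) * ((u * x⁻¹ * u⁻¹) * (z₁⁻¹ * z)) := by
        calc a * z = x * ((u * x⁻¹ * u⁻¹) * z₁) * (z₁⁻¹ * z) := by rw [ha]; group
          _ = _ := by rw [h3]; group
      have h5 : x * z₁ = (a * z) * ((u * x⁻¹ * u⁻¹) * (z₁⁻¹ * z))⁻¹ := by rw [h4]; group
      rw [h5]
      exact mul_mem h1 (inv_mem (mul_mem hw t.cen))
    have h3 := t.eq_one (mul_mem hx t.mem) h2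
    have h4 : x = z₁⁻¹ := eq_inv_of_mul_eq_one_left h3
    rw [h4]
    exact inv_eq_of_mul_eq_one_left t.z₁_sq
  have hLu' : L.map (MulAut.conj u).toMonoidHom = L.map (MulAut.conj r).toMonoidHom ∨
      L.map (MulAut.conj u).toMonoidHom = L.map (MulAut.conj (r * u)).toMonoidHom := by
    by_contra hcon
    push Not at hcon
    have h1 := hdec hLu hcon.1 hcon.2
    apply hxz₁
    -- conjugate back
    have h2 : u⁻¹ * (a * z) * u ∈ Subgroup.centralizer (L : Set G) := by
      rw [Subgroup.mem_centralizer_iff]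
      intro y hy
      have h3 := Subgroup.mem_centralizer_iff.1 h1 (u * y * u⁻¹) (conj_mem_map hy)
      calc y * (u⁻¹ * (a * z) * u) = u⁻¹ * ((u * y * u⁻¹) * (a * z)) * u := by group
        _ = u⁻¹ * ((a * z) * (u * y * u⁻¹)) * u := by rw [h3]
        _ = _ := by group
    have huz : u * z = z * u := t.h.central u hu
    have h3 : u⁻¹ * (a * z) * u = (u⁻¹ * x * u) * (x⁻¹ * z) := by
      calc u⁻¹ * (a * z) * u = u⁻¹ * x * u * x⁻¹ * u⁻¹ * (z * u) := by rw [ha]; group
        _ = _ := by rw [← huz]; group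
    have huL' : L.map (MulAut.conj u⁻¹).toMonoidHom ≠ L := by
      intro h4
      apply huL
      conv_lhs => rw [← h4]
      ext y
      rw [mem_map_conj_iff, mem_map_conj_iff]
      have : u⁻¹⁻¹ * (u⁻¹ * y * u) * u⁻¹ = y := by group
      rw [this]
    have hLui : Cfsg.IsComponent (L.map (MulAut.conj u⁻¹).toMonoidHom) := (isComponent_conj u⁻¹).2 t.comp
    have hw : u⁻¹ * x * u ∈ Subgroup.centralizer (L : Set G) := by
      apply hcomm hLui t.comp huL'
      have := conj_mem_map (u := u⁻¹) hx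
      rwa [inv_inv] at this
    have h4 : x⁻¹ * z₁ ∈ Subgroup.centralizer (L : Set G) := by
      have h5 : x⁻¹ * z₁ = (u⁻¹ * x * u)⁻¹ * (u⁻¹ * (a * z) * u) * (z₁⁻¹ * z)⁻¹ := by rw [h3]; group
      rw [h5]
      exact mul_mem (mul_mem (inv_mem hw) h2) (inv_mem t.cen)
    have h5 := t.eq_one (mul_mem (inv_mem hx) t.mem) h4
    rw [inv_mul_eq_one] at h5
    exact h5
  -- pigeonhole
  rcases hK' with h1 | h1 <;> rcases hL' with h2 | h2 <;> rcases hLu' with h3 | h3
  · exact hKL (h1.trans h2.symm)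
  · exact hKL (h1.trans h2.symm)
  · exact hKu (h1.trans h3.symm)
  · exact huL (h3.trans h2.symm)
  · exact huL (h3.trans h2.symm)
  · exact hKu (h1.trans h3.symm)
  · exact hKL (h1.trans h2.symm)
  · exact hKL (h1.trans h2.symm)

end TC

end Cfsg.Agent.H64.LX
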