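import Cfsg.Agent.H64.LX2

/-!
Large extraspecial 2-subgroups: the structure theorem.
-/

set_option autoImplicit false
set_option linter.style.haveILetI false

namespace Cfsg.Agent.H64.LX

open Cfsg.Agent.H90 (XS PL)
open Cfsg.Agent.FStar
open scoped commutatorElement

variable {G : Type*} [Group G] [Finite G] {Q : Subgroup G} {z : G}

namespace TC

variable {L : Subgroup G} {z₁ u : G}

/-- the second component -/
abbrev Lu (u : G) (L : Subgroup G) : Subgroup G := L.map (MulAut.conj u).toMonoidHom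

theorem comm_Lu (t : TC Q z L z₁) (huL : Lu u L ≠ L) {x y : G} (hx : x ∈ L) (hy : y ∈ Lu u L) : x * y = y * x := by
  have h := component_commute t.comp ((isComponent_conj u).2 t.comp) (Ne.symm huL)
  rw [Subgroup.commutator_eq_bot_iff_le_centralizer] at h
  exact (Subgroup.mem_centralizer_iff.1 (h hx) y hy).symm

theorem inf_Lu (t : TC Q z L z₁) (huL : Lu u L ≠ L) {x : G} (hx : x ∈ L) (hy : x ∈ Lu u L) : x = 1 := by
  apply t.eq_one hx
  rw [Subgroup.mem_centralizer_iff]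
  intro y hyL
  exact t.comm_Lu huL hyL hy

theorem uniq (t : TC Q z L z₁) (huL : Lu u L ≠ L) {a b c d : G} (ha : a ∈ L) (hb : b ∈ Lu u L) (hc : c ∈ L)
    (hd : d ∈ Lu u L) (h : a * b = c * d) : a = c ∧ b = d := by
  have h1 : c⁻¹ * a = d * b⁻¹ := by
    rw [inv_mul_eq_iff_eq_mul, ← mul_assoc, ← h]; group
  have h2 : c⁻¹ * a = 1 := t.inf_Lu huL (mul_mem (inv_mem hc) ha) (by rw [h1]; exact mul_mem hd (inv_mem hb))
  have h3 : a = c := (inv_mul_eq_one.1 h2).symm
  refine ⟨h3, ?_⟩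
  rw [h3] at h
  exact mul_left_cancel h

theorem swap (t : TC Q z L z₁) (hu : u ∈ Q) (huL : Lu u L ≠ L) {y : G} (hy : y ∈ Lu u L) : u * y * u⁻¹ ∈ L := by
  have h1 : Cfsg.IsComponent (Lu u (Lu u L)) := (isComponent_conj u).2 ((isComponent_conj u).2 t.comp)
  rcases t.two_comp hu huL h1 with h2 | h2
  · rw [← h2]; exact conj_mem_map hy
  · exfalso
    apply huL
    ext w
    have h3 : u * w * u⁻¹ ∈ Lu u (Lu u L) ↔ u * w * u⁻¹ ∈ Lu u L := by rw [h2]
    have h4 : u⁻¹ * (u * w * u⁻¹) * u = w := by group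
    have h5 : u * w * u⁻¹ ∈ Lu u (Lu u L) ↔ w ∈ Lu u L := by
      rw [mem_map_conj_iff (L := Lu u L) (u := u) (x := u * w * u⁻¹), h4]
    have h6 : u * w * u⁻¹ ∈ Lu u L ↔ w ∈ L := by
      rw [mem_map_conj_iff (L := L) (u := u) (x := u * w * u⁻¹), h4]
    rw [← h5, h3, h6]

theorem layer_eq (t : TC Q z L z₁) (hu : u ∈ Q) (huL : Lu u L ≠ L) : L ⊔ Lu u L = Cfsg.layer G := by
  apply le_antisymm
  · exact sup_le (component_le_layer t.comp) (component_le_layer ((isComponent_conj u).2 t.comp))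
  · rw [layer_le_iff]
    intro K hK
    rcases t.two_comp hu huL hK with h | h
    · rw [h]; exact le_sup_left
    · rw [h]; exact le_sup_right

theorem z_eq (t : TC Q z L z₁) (hu : u ∈ Q) (huL : Lu u L ≠ L) : z = z₁ * (u * z₁ * u⁻¹) := by
  have h1 : z ∈ L ⊔ Lu u L := by rw [t.layer_eq hu huL]; exact z_mem_layer t.h t.large t.comp
  have hle : L ≤ Subgroup.normalizer ((Lu u L : Subgroup G) : Set G) := by
    intro x hx
    rw [Subgroup.mem_normalizer_iff]
    intro y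
    constructor
    · intro hy
      rw [t.comm_Lu huL hx hy, mul_inv_cancel_right]; exact hy
    · intro hy
      have h2 := t.comm_Lu huL hx hy
      have h3 : y = x * y * x⁻¹ := by
        calc y = x⁻¹ * ((x * y * x⁻¹) * x) := by group
          _ = x⁻¹ * (x * (x * y * x⁻¹)) := by rw [h2]
          _ = x * y * x⁻¹ := by group
      rw [h3]; exact hy
  obtain ⟨a, ha, b, hb, hab⟩ := mem_sup_of_le_normalizer hle h1
  have huz : u * z * u⁻¹ = z := by rw [t.h.central u hu]; group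
  have h2 : (u * b * u⁻¹) * (u * a * u⁻¹) = a * b := by
    have h3 : u * (a * b) * u⁻¹ = a * b := by rw [hab, huz]
    rw [t.comm_Lu huL ha hb] at h3
    rw [t.comm_Lu huL ha hb, ← h3]; group
  obtain ⟨h4, h5⟩ := t.uniq huL (t.swap hu huL hb) (conj_mem_map ha) ha hb h2
  -- a = z₁
  have h6 : a = z₁ := by
    have h7 : z₁⁻¹ * a ∈ Subgroup.centralizer (L : Set G) := by
      have h8 : z₁⁻¹ * a = (z₁⁻¹ * z) * b⁻¹ := by rw [← hab]; group
      rw [h8]
      refine mul_mem t.cen (inv_mem ?_)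
      rw [Subgroup.mem_centralizer_iff]
      intro y hy
      exact t.comm_Lu huL hy hb
    have h8 := t.eq_one (mul_mem (inv_mem t.mem) ha) h7
    exact (inv_mul_eq_one.1 h8).symm
  rw [← h6, h5, hab]

/-- the `L`-part of an element of `⟨z⟩` -/
theorem part (t : TC Q z L z₁) (hu : u ∈ Q) (huL : Lu u L ≠ L) {a b : G} (ha : a ∈ L) (hb : b ∈ Lu u L)
    (h : a * b = 1 ∨ a * b = z) : a = 1 ∨ a = z₁ := by
  rcases h with h | h
  · left
    exact (t.uniq huL ha hb (one_mem L) (one_mem _) (by rw [h, mul_one])).1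
  · right
    exact (t.uniq huL ha hb t.mem (conj_mem_map t.mem) (by rw [h]; exact t.z_eq hu huL)).1

theorem pow_four (t : TC Q z L z₁) (hu : u ∈ Q) (huL : Lu u L ≠ L) {x : G} (hx : x ∈ L) (hxz : x * z₁ = z₁ * x) :
    x ^ 4 = 1 := by
  have h1 := t.comm_mem ((t.comm_iff hx).1 hxz) hu
  have h2 := t.h.pow_four h1
  have hxu : u * x⁻¹ * u⁻¹ ∈ Lu u L := conj_mem_map (inv_mem hx)
  rw [(show Commute x (u * x⁻¹ * u⁻¹) from t.comm_Lu huL hx hxu).mul_pow] at h2
  exact (t.uniq huL (pow_mem hx 4) (pow_mem hxu 4) (one_mem L) (one_mem _) (by rw [h2, mul_one])).1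

theorem sq_mem (t : TC Q z L z₁) (hu : u ∈ Q) (huL : Lu u L ≠ L) {x : G} (hx : x ∈ L) (hxz : x * z₁ = z₁ * x) :
    x * x = 1 ∨ x * x = z₁ := by
  have h1 := t.comm_mem ((t.comm_iff hx).1 hxz) hu
  have h2 := t.h.sqr h1
  have hxu : u * x⁻¹ * u⁻¹ ∈ Lu u L := conj_mem_map (inv_mem hx)
  have h3 : x * (u * x⁻¹ * u⁻¹) * (x * (u * x⁻¹ * u⁻¹)) = (x * x) * ((u * x⁻¹ * u⁻¹) * (u * x⁻¹ * u⁻¹)) := by
    have h4 := t.comm_Lu huL hx hxu
    calc x * (u * x⁻¹ * u⁻¹) * (x * (u * x⁻¹ * u⁻¹)) = x * ((u * x⁻¹ * u⁻¹) * x) * (u * x⁻¹ * u⁻¹) := by group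
      _ = x * (x * (u * x⁻¹ * u⁻¹)) * (u * x⁻¹ * u⁻¹) := by rw [h4]
      _ = _ := by group
  rw [h3] at h2
  exact t.part hu huL (mul_mem hx hx) (mul_mem hxu hxu) h2

theorem comm_mem' (t : TC Q z L z₁) (hu : u ∈ Q) (huL : Lu u L ≠ L) {x y : G} (hx : x ∈ L) (hxz : x * z₁ = z₁ * x)
    (hy : y ∈ L) (hyz : y * z₁ = z₁ * y) : x * y * x⁻¹ * y⁻¹ = 1 ∨ x * y * x⁻¹ * y⁻¹ = z₁ := by
  have h1 := t.comm_mem ((t.comm_iff hx).1 hxz) hu
  have h1' := t.comm_mem ((t.comm_iff hy).1 hyz) hu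
  have hxu : u * x⁻¹ * u⁻¹ ∈ Lu u L := conj_mem_map (inv_mem hx)
  have hyu : u * y⁻¹ * u⁻¹ ∈ Lu u L := conj_mem_map (inv_mem hy)
  set a := u * x⁻¹ * u⁻¹ with ha
  set b := u * y⁻¹ * u⁻¹ with hb
  have e1 := t.comm_Lu huL hx hxu
  have e2 := t.comm_Lu huL hx hyu
  have e3 := t.comm_Lu huL hy hxu
  have e4 := t.comm_Lu huL hy hyu
  have h3 : (x * a) * (y * b) * (x * a)⁻¹ * (y * b)⁻¹ = (x * y * x⁻¹ * y⁻¹) * (a * b * a⁻¹ * b⁻¹) := by
    have c1 : Commute x a := e1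
    have c2 : Commute x b := e2
    have c3 : Commute y a := e3
    have c4 : Commute y b := e4
    calc (x * a) * (y * b) * (x * a)⁻¹ * (y * b)⁻¹ = x * (a * y) * b * a⁻¹ * x⁻¹ * b⁻¹ * y⁻¹ := by group
      _ = x * (y * a) * b * a⁻¹ * (x⁻¹ * b⁻¹) * y⁻¹ := by rw [← e3]; group
      _ = x * y * a * b * a⁻¹ * (b⁻¹ * x⁻¹) * y⁻¹ := by rw [(c2.inv_inv).eq]; group
      _ = x * y * ((a * b * a⁻¹ * b⁻¹) * (x⁻¹ * y⁻¹)) := by group
      _ = x * y * ((x⁻¹ * y⁻¹) * (a * b * a⁻¹ * b⁻¹)) := by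
        rw [t.comm_Lu huL (mul_mem (inv_mem hx) (inv_mem hy))
          (mul_mem (mul_mem (mul_mem hxu hyu) (inv_mem hxu)) (inv_mem hyu))]
      _ = _ := by group
  have h4 : (x * a) * (y * b) * (x * a)⁻¹ * (y * b)⁻¹ = 1 ∨ (x * a) * (y * b) * (x * a)⁻¹ * (y * b)⁻¹ = z := by
    rcases t.h.comm _ h1 _ h1' with h5 | h5
    · left; rw [h5]; group
    · right; rw [h5]; group
  rw [h3] at h4
  exact t.part hu huL (mul_mem (mul_mem (mul_mem hx hy) (inv_mem hx)) (inv_mem hy))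
    (mul_mem (mul_mem (mul_mem hxu hyu) (inv_mem hxu)) (inv_mem hyu)) h4

/-- the Sylow subgroup -/
theorem exists_sylow (t : TC Q z L z₁) (hu : u ∈ Q) (huL : Lu u L ≠ L) :
    ∃ R : Sylow 2 ↥L, (R : Subgroup ↥L) = (Subgroup.centralizer ({z₁} : Set G)).subgroupOf L ∧
      (frattini ↥(R : Subgroup ↥L)).map ((L.subtype).comp (R : Subgroup ↥L).subtype) ≤ Subgroup.zpowers z₁ := by
  haveI : Fact (Nat.Prime 2) := ⟨Nat.prime_two⟩
  have hQp : IsPGroup 2 Q := t.h.isPGroup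
  obtain ⟨S, hS⟩ := hQp.exists_le_sylow
  -- the centre of S
  have hzS : ∀ s ∈ (S : Subgroup G), s * z = z * s := by
    haveI : Nontrivial ↥(S : Subgroup G) := by
      refine ⟨⟨⟨z, hS t.h.mem⟩, 1, fun h => t.h.ne_one ?_⟩⟩
      exact congrArg Subtype.val h
    have hcn := S.isPGroup'.center_nontrivial
    obtain ⟨c, hc⟩ := exists_ne (1 : Subgroup.center ↥(S : Subgroup G))
    have hcc : ∀ y ∈ (S : Subgroup G), ((c : ↥(S : Subgroup G)) : G) * y = y * c := by
      intro y hy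
      exact (congrArg Subtype.val (Subgroup.mem_center_iff.1 c.2 ⟨y, hy⟩)).symm
    have hc1 : ((c : ↥(S : Subgroup G)) : G) ≠ 1 := fun h => hc (Subtype.ext (Subtype.ext h))
    rcases t.h.cent _ (fun q hq => hcc q (hS hq)) with h1 | h1
    · exact absurd h1 hc1
    · intro s hs
      rw [← h1]; exact (hcc s hs).symm
  obtain ⟨T, hT⟩ := S0542.result 2 L t.comp.1 S
  have hTle : (T : Subgroup L) ≤ (Subgroup.centralizer ({z₁} : Set G)).subgroupOf L := by
    intro x hx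
    rw [hT, Subgroup.mem_subgroupOf] at hx
    rw [Subgroup.mem_subgroupOf, Subgroup.mem_centralizer_singleton_iff]
    exact (t.comm_iff x.2).2 (hzS _ hx)
  have hp : IsPGroup 2 ↥((Subgroup.centralizer ({z₁} : Set G)).subgroupOf L) := by
    rintro ⟨x, hx⟩
    rw [Subgroup.mem_subgroupOf, Subgroup.mem_centralizer_singleton_iff] at hx
    refine ⟨2, ?_⟩
    apply Subtype.ext
    apply Subtype.ext
    exact t.pow_four hu huL x.2 hx
  have hTeq : (T : Subgroup L) = (Subgroup.centralizer ({z₁} : Set G)).subgroupOf L := (T.is_maximal' hp hTle).symm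
  refine ⟨T, hTeq, ?_⟩
  have hmem : ∀ x : ↥(T : Subgroup L), ((x : L) : G) * z₁ = z₁ * ((x : L) : G) := by
    intro x
    have h1 : (x : L) ∈ (Subgroup.centralizer ({z₁} : Set G)).subgroupOf L := by rw [← hTeq]; exact x.2
    rw [Subgroup.mem_subgroupOf, Subgroup.mem_centralizer_singleton_iff] at h1
    exact h1
  have hz₁T : (⟨z₁, t.mem⟩ : L) ∈ (T : Subgroup L) := by
    rw [hTeq, Subgroup.mem_subgroupOf, Subgroup.mem_centralizer_singleton_iff]
  set ζ : ↥(T : Subgroup L) := ⟨⟨z₁, t.mem⟩, hz₁T⟩ with hζ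
  have hN : (Subgroup.zpowers ζ).Normal := by
    have h1 : ζ ∈ Subgroup.center ↥(T : Subgroup L) := by
      rw [Subgroup.mem_center_iff]
      intro g
      apply Subtype.ext
      apply Subtype.ext
      exact hmem g
    have h2 : Subgroup.zpowers ζ ≤ Subgroup.center ↥(T : Subgroup L) := by
      rwa [Subgroup.zpowers_le]
    refine ⟨fun n hn g => ?_⟩
    have h3 := Subgroup.mem_center_iff.1 (h2 hn) g
    rw [h3, mul_inv_cancel_right]
    exact hn
  have hin : ∀ w : ↥(T : Subgroup L), (((w : L) : G) = 1 ∨ ((w : L) : G) = z₁) → w ∈ Subgroup.zpowers ζ := by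
    intro w hw
    rcases hw with h1 | h1
    · have : w = 1 := Subtype.ext (Subtype.ext h1)
      rw [this]; exact one_mem _
    · have : w = ζ := Subtype.ext (Subtype.ext h1)
      rw [this]; exact Subgroup.mem_zpowers ζ
  have hfr : frattini ↥(T : Subgroup L) ≤ Subgroup.zpowers ζ := by
    apply Solv.frattini_le_of_elementary_quotient (p := 2)
    · rw [commutator_def, Subgroup.commutator_le]
      intro x _ y _
      apply hin
      have := t.comm_mem' hu huL (x : L).2 (hmem x) (y : L).2 (hmem y)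
      exact this
    · intro x
      apply hin
      have := t.sq_mem hu huL (x : L).2 (hmem x)
      rw [pow_two]
      exact this
  rw [Subgroup.map_le_iff_le_comap]
  intro x hx
  rw [Subgroup.mem_comap]
  obtain ⟨i, hi⟩ := hfr hx
  refine ⟨i, ?_⟩
  have hi' : ζ ^ i = x := hi
  rw [← hi']
  change z₁ ^ i = (L.subtype).comp (T : Subgroup ↥L).subtype (ζ ^ i)
  rw [map_zpow]; rfl

/-- `Q` is not `O_2(C(z))` -/
theorem core_ne (t : TC Q z L z₁) (hu : u ∈ Q) (huL : Lu u L ≠ L) :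
    Q ≠ (Cfsg.pCore 2 ↥(Subgroup.centralizer ({z} : Set G))).map (Subgroup.centralizer ({z} : Set G)).subtype := by
  intro hQ
  obtain ⟨x, hx, hxz, hx1, hxz₁⟩ := t.exists_third
  have hsub : (L.subgroupOf (Subgroup.centralizer ({z} : Set G))).IsSubnormal := t.comp.1.subgroupOf
  have hp : IsPGroup 2 ↥(L.subgroupOf (Subgroup.centralizer ({z} : Set G))) := by
    rintro ⟨y, hy⟩
    rw [Subgroup.mem_subgroupOf] at hy
    refine ⟨2, ?_⟩
    apply Subtype.ext
    apply Subtype.ext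
    exact t.pow_four hu huL hy ((t.comm_iff hy).2 (Subgroup.mem_centralizer_singleton_iff.1 y.2))
  have h1 := H49.le_pCore_of_isSubnormal hsub hp
  have hxQ : x ∈ Q := by
    rw [hQ]
    exact ⟨⟨x, Subgroup.mem_centralizer_singleton_iff.2 hxz⟩, h1 (by rw [Subgroup.mem_subgroupOf]; exact hx), rfl⟩
  have hxu : u * x * u⁻¹ ∈ Lu u L := conj_mem_map hx
  rcases t.h.conj_eq hxQ hu with h2 | h2
  · apply hx1
    exact t.inf_Lu huL hx (by rw [← h2]; exact hxu)
  · apply hxz₁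
    have h3 : (x * z₁) * (u * z₁ * u⁻¹) = 1 * (u * x * u⁻¹) := by
      rw [one_mul, h2, mul_assoc]
      congr 1
      exact (t.z_eq hu huL).symm
    have h4 := (t.uniq huL (mul_mem hx t.mem) (conj_mem_map t.mem) (one_mem L) hxu h3).1
    have h5 : x = z₁⁻¹ := eq_inv_of_mul_eq_one_left h4
    rw [h5]; exact inv_eq_of_mul_eq_one_left t.z₁_sq

end TC

/-- **Structure theorem** -/
theorem structure_thm (hQ : Cfsg.IsLargeExtraspecial Q)
    (hz : ((Subgroup.center ↥Q).map Q.subtype) = Subgroup.zpowers z) (M : Subgroup G)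
    (hM : M = Subgroup.normalClosure ({z} : Set G)) :
    Q.Normal ∨ (IsMulCommutative ↥M ∧ Cfsg.generalizedFittingSubgroup G = Cfsg.pCore 2 G) ∨
    (M = Cfsg.generalizedFittingSubgroup G ∧ IsSimpleGroup ↥M ∧ ¬ IsMulCommutative ↥M) ∨
    (M = Cfsg.generalizedFittingSubgroup G ∧ ∃ (L : Subgroup G) (u : G), u ∈ Q ∧ IsSimpleGroup ↥L ∧
      ¬ IsMulCommutative ↥L ∧ L ⊓ (L).map (MulAut.conj u).toMonoidHom = ⊥ ∧
      (∀ x ∈ L, ∀ y ∈ (L).map (MulAut.conj u).toMonoidHom, x * y = y * x) ∧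
      L ⊔ (L).map (MulAut.conj u).toMonoidHom = M ∧ ∃ z₁ ∈ L, z = z₁ * (u * z₁ * u⁻¹) ∧
      (∃ R : Sylow 2 ↥L, (R : Subgroup ↥L) = (Subgroup.centralizer ({z₁} : Set G)).subgroupOf L ∧
        (frattini ↥(R : Subgroup ↥L)).map ((L.subtype).comp (R : Subgroup ↥L).subtype) ≤ Subgroup.zpowers z₁) ∧
      Q ≠ (Cfsg.pCore 2 ↥(Subgroup.centralizer ({z} : Set G))).map (Subgroup.centralizer ({z} : Set G)).subtype) := by
  have h := PL.of_isLarge' hQ hz
  by_cases hc : Cfsg.pCore 2 G = ⊥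
  · obtain ⟨hf, hg, L, hL⟩ := case_comp h hQ hc
    have hMl : M = Cfsg.layer G := by rw [hM, normalClosure_eq h hQ hL]
    by_cases hall : ∀ u ∈ Q, L.map (MulAut.conj u).toMonoidHom = L
    · right; right; left
      have hlay : Cfsg.layer G = L := by
        apply le_antisymm _ (component_le_layer hL)
        rw [layer_le_iff]
        intro K hK
        obtain ⟨y, hy, hKy⟩ := comp_orbit h hQ hL hK
        rw [hKy, hall y hy]
      rw [hMl, hg]
      refine ⟨rfl, ?_⟩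
      rw [hlay]
      exact comp_simple hf hL
    · right; right; right
      push Not at hall
      obtain ⟨u, hu, huL⟩ := hall
      obtain ⟨z₁, t⟩ := exists_tc h hQ hf hL
      obtain ⟨hs, hna⟩ := comp_simple hf hL
      refine ⟨by rw [hMl, hg], L, u, hu, hs, hna, ?_, fun x hx y hy => t.comm_Lu huL hx hy, ?_, z₁, t.mem,
        t.z_eq hu huL, t.exists_sylow hu huL, t.core_ne hu huL⟩
      · rw [eq_bot_iff]
        intro x hx
        rw [Subgroup.mem_bot]
        exact t.inf_Lu huL (Subgroup.mem_inf.1 hx).1 (Subgroup.mem_inf.1 hx).2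
      · rw [hMl]; exact t.layer_eq hu huL
  · right; left
    rw [hM]
    exact case_core h hQ hc

end Cfsg.Agent.H64.LX
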