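import Cfsg.Agent.H64.LX3
import Cfsg.Agent.S5421
import Cfsg.Agent.S5422
import Cfsg.Agent.S5433
import Cfsg.Agent.H90.Setting

/-!
Large extraspecial 2-subgroups: simplicity criteria.
-/

set_option autoImplicit false
set_option linter.style.haveILetI false

namespace Cfsg.Agent.H64.LX

open Cfsg.Agent.H90 (XS PL)
open Cfsg.Agent.FStar
open scoped commutatorElement

variable {G : Type*} [Group G] [Finite G] {Q : Subgroup G} {z : G}

/-- an involution whose centraliser has an extraspecial generalised Fitting subgroup -/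
theorem pl_of_fstar (hz : orderOf z = 2) (hQC : Q ≤ Subgroup.centralizer ({z} : Set G))
    (hF : (Cfsg.generalizedFittingSubgroup ↥(Subgroup.centralizer ({z} : Set G))).map (Subgroup.centralizer ({z} : Set G)).subtype = Q)
    (hQ : Cfsg.IsExtraspecial 2 ↥Q) : PL Q z ∧ (Subgroup.center ↥Q).map Q.subtype = Subgroup.zpowers z := by
  set C := Subgroup.centralizer ({z} : Set G) with hC
  have hcomm : ∀ e ∈ Q, e * z = z * e := fun e he => Subgroup.mem_centralizer_singleton_iff.1 (hQC he)
  have hcc := centralizer_generalizedFitting_le (G := ↥C)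
  have hcent0 : ∀ g : G, g ∈ C → (∀ q ∈ Q, g * q = q * g) → g ∈ Q := by
    intro g hg hgq
    have h1 : (⟨g, hg⟩ : C) ∈ Subgroup.centralizer (Cfsg.generalizedFittingSubgroup ↥C : Set ↥C) := by
      rw [Subgroup.mem_centralizer_iff]
      intro y hy
      apply Subtype.ext
      have : (y : G) ∈ Q := by rw [← hF]; exact ⟨y, hy, rfl⟩
      exact (hgq _ this).symm
    rw [← hF]
    exact ⟨_, hcc h1, rfl⟩
  have hzC : z ∈ C := Subgroup.mem_centralizer_singleton_iff.2 rfl
  have hzQ : z ∈ Q := hcent0 z hzC (fun q hq => (hcomm q hq).symm)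
  have hz1 : z ≠ 1 := by
    rintro rfl
    rw [orderOf_one] at hz; omega
  obtain ⟨z', h', h''⟩ := XS.of_isExtraspecial hQ
  have hzz' : z = z' := by
    rcases h'.nondeg z hzQ (fun y hy => (hcomm y hy).symm) with h | h
    · exact absurd h hz1
    · exact h
  subst hzz'
  refine ⟨⟨h', ?_, ?_⟩, h''⟩
  · intro g hg
    have hgC : g ∈ C := Subgroup.mem_centralizer_singleton_iff.2 (hg z hzQ)
    exact h'.nondeg g (hcent0 g hgC hg) hg
  · intro g hg q hq
    rw [← hF] at hq ⊢
    obtain ⟨w, hw, rfl⟩ := hq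
    have hn : (Cfsg.generalizedFittingSubgroup ↥C).Normal := inferInstance
    exact ⟨_, hn.conj_mem w hw ⟨g, Subgroup.mem_centralizer_singleton_iff.2 hg⟩, rfl⟩

/-- normalising `⟨z⟩` is centralising `z` -/
theorem comm_of_norm (hz : orderOf z = 2) {g : G} (h : g * z * g⁻¹ ∈ Subgroup.zpowers z) : g * z = z * g := by
  have hz1 : z ≠ 1 := by
    rintro rfl
    rw [orderOf_one] at hz; omega
  have hzz : z * z = 1 := by rw [← pow_two, ← hz]; exact pow_orderOf_eq_one z
  obtain ⟨k, hk⟩ := h
  have hk' : z ^ k = g * z * g⁻¹ := hk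
  rcases Int.even_or_odd' k with ⟨m, hm | hm⟩
  · exfalso
    have h1 : z ^ k = 1 := by rw [hm, zpow_mul, zpow_ofNat, pow_two, hzz, one_zpow]
    rw [h1] at hk'
    apply hz1
    have h2 : g * z * g⁻¹ = 1 := hk'.symm
    rw [mul_inv_eq_one, mul_eq_left] at h2
    exact h2
  · have h1 : z ^ k = z := by rw [hm, zpow_add, zpow_mul, zpow_ofNat, pow_two, hzz, one_zpow, one_mul, zpow_one]
    rw [h1] at hk'
    rw [← mul_inv_eq_iff_eq_mul]; exact hk'.symm

theorem normalizer_le (h : PL Q z) {g : G} (hg : g ∈ Subgroup.normalizer (Q : Set G)) : g * z = z * g := by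
  -- g z g⁻¹ is central in Q
  have hmem : g * z * g⁻¹ ∈ Q := (Subgroup.mem_normalizer_iff.1 hg z).1 h.mem
  rcases h.nondeg _ hmem (fun y hy => by
    have h1 : g⁻¹ * y * g ∈ Q := by
      have := (Subgroup.mem_normalizer_iff.1 (inv_mem hg) y).1 hy
      rwa [inv_inv] at this
    have h2 := h.central _ h1
    calc g * z * g⁻¹ * y = g * (z * (g⁻¹ * y * g)) * g⁻¹ := by group
      _ = g * ((g⁻¹ * y * g) * z) * g⁻¹ := by rw [h2]
      _ = y * (g * z * g⁻¹) := by group) with h1 | h1
  · exfalso
    apply h.ne_one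
    rw [mul_inv_eq_one, mul_eq_left] at h1
    exact h1
  · rw [mul_inv_eq_iff_eq_mul] at h1; exact h1

/-- `G` is simple as soon as the normal closure of `z` is simple and contains `C(z)` -/
theorem simple_of_le (h : PL Q z) (hQ : Cfsg.IsLargeExtraspecial Q) {M : Subgroup G} [M.Normal]
    (hs : IsSimpleGroup ↥M) (hC : Subgroup.centralizer ({z} : Set G) ≤ M) : IsSimpleGroup G := by
  have hQM : Q ≤ M := fun q hq => hC (Subgroup.mem_centralizer_singleton_iff.2 (h.central q hq))
  have h1 := S5433.result Q hQ M hQM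
  have h2 : Subgroup.normalizer (Q : Set G) ≤ M := fun g hg =>
    hC (Subgroup.mem_centralizer_singleton_iff.2 (normalizer_le h hg))
  have h3 : M = ⊤ := by rw [← h1]; exact (sup_eq_left.2 h2).symm
  rw [h3] at hs
  haveI := hs
  exact (Subgroup.topEquiv (G := G)).symm.isSimpleGroup

theorem not_comm_of_ex (hQ : Cfsg.IsExtraspecial 2 ↥Q) {M : Subgroup G} (hQM : Q ≤ M) : ¬ IsMulCommutative ↥M := by
  intro hM
  obtain ⟨a, ha, b, hb, hab⟩ := Cfsg.Agent.H90.exists_not_commute_of_isExtraspecial hQ
  apply hab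
  exact congrArg Subtype.val (hM.is_comm.comm (⟨a, hQM ha⟩ : M) ⟨b, hQM hb⟩)

/-- the fourth case of the structure theorem is impossible when `Q ≤ M` -/
theorem no_two (hQM : Q ≤ Subgroup.normalClosure ({z} : Set G)) {L : Subgroup G} {u : G} (hu : u ∈ Q)
    (hs : IsSimpleGroup ↥L) (hinf : L ⊓ (L).map (MulAut.conj u).toMonoidHom = ⊥)
    (hcomm : ∀ x ∈ L, ∀ y ∈ (L).map (MulAut.conj u).toMonoidHom, x * y = y * x)
    (hsup : L ⊔ (L).map (MulAut.conj u).toMonoidHom = Subgroup.normalClosure ({z} : Set G)) : False := by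
  have h1 : L ⊔ (L).map (MulAut.conj u).toMonoidHom ≤ Subgroup.normalizer (L : Set G) := by
    refine sup_le Subgroup.le_normalizer ?_
    intro y hy
    apply Subgroup.centralizer_le_normalizer
    rw [Subgroup.mem_centralizer_iff]
    intro x hx
    exact hcomm x hx y hy
  rw [hsup] at h1
  have h2 := h1 (hQM hu)
  have h3 : L ≤ (L).map (MulAut.conj u).toMonoidHom := by
    intro x hx
    rw [mem_map_conj_iff]
    have := (Subgroup.mem_normalizer_iff.1 (inv_mem h2) x).1 hx
    rwa [inv_inv] at this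
  rw [inf_eq_left.2 h3] at hinf
  haveI : Nontrivial ↥L := hs.toNontrivial
  obtain ⟨x, hx⟩ := exists_ne (1 : ↥L)
  apply hx
  have hx2 : (x : G) ∈ (⊥ : Subgroup G) := by rw [← hinf]; exact x.2
  exact Subtype.ext (Subgroup.mem_bot.1 hx2)

theorem row5427 (hz : orderOf z = 2) (hQC : Q ≤ Subgroup.centralizer ({z} : Set G))
    (hF : (Cfsg.generalizedFittingSubgroup ↥(Subgroup.centralizer ({z} : Set G))).map (Subgroup.centralizer ({z} : Set G)).subtype = Q)
    (hQ : Cfsg.IsExtraspecial 2 ↥Q) (w : ℕ) (hw : 2 ≤ w) (hcard : Nat.card ↥Q = 2 ^ (2 * w + 1)) (K U : Subgroup G)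
    (hU : U = Subgroup.closure {x : G | ∃ k ∈ K, x = k * z * k⁻¹}) (hUab : IsMulCommutative ↥U)
    (hgen : Subgroup.closure {x : G | ∃ c ∈ Subgroup.centralizer ({z} : Set G), ∃ u ∈ U, x = c * u * c⁻¹} = Subgroup.centralizer ({z} : Set G))
    (h3 : (∃ k ∈ K, k * z * k⁻¹ ∈ Q ∧ k * z * k⁻¹ ≠ z) ∨ ∃ u ∈ U ⊓ Q, u ∉ Subgroup.zpowers z ∧
      (∃ hz' : z ∈ Subgroup.centralizer ({u} : Set G), (⟨z, hz'⟩ : ↥(Subgroup.centralizer ({u} : Set G))) ∈ Cfsg.pCore 2 ↥(Subgroup.centralizer ({u} : Set G)))) :
    IsSimpleGroup G ∧ Cfsg.IsLargeExtraspecial Q := by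
  obtain ⟨h, hc⟩ := pl_of_fstar hz hQC hF hQ
  have hL2 := h.centralizer_eq
  have hL3 := h.le_normalizer
  have hzz : z * z = 1 := h.sq
  have hUmem : ∀ {k : G}, k ∈ K → k * z * k⁻¹ ∈ U := by
    intro k hk
    rw [hU]; exact Subgroup.subset_closure ⟨k, hk, rfl⟩
  have hUsq : ∀ u ∈ U, u * u = 1 := by
    have h1 : ∀ u, u ∈ Subgroup.closure {x : G | ∃ k ∈ K, x = k * z * k⁻¹} → u * u = 1 := by
      intro u hu
      induction hu using Subgroup.closure_induction with
      | mem x hx =>
        obtain ⟨k, -, rfl⟩ := hx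
        calc k * z * k⁻¹ * (k * z * k⁻¹) = k * (z * z) * k⁻¹ := by group
          _ = 1 := by rw [hzz]; group
      | one => rw [mul_one]
      | mul x y hx hy h1 h2 =>
        have hxy : x * y = y * x := by
          rw [← hU] at hx hy
          exact congrArg Subtype.val (hUab.is_comm.comm (⟨x, hx⟩ : U) ⟨y, hy⟩)
        calc x * y * (x * y) = x * (y * x) * y := by group
          _ = x * (x * y) * y := by rw [hxy]
          _ = (x * x) * (y * y) := by group
          _ = 1 := by rw [h1, h2, mul_one]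
      | inv x _ h1 =>
        have h2 : x⁻¹ = x := inv_eq_of_mul_eq_one_left h1
        rw [h2]; exact h1
    intro u hu
    rw [hU] at hu
    exact h1 u hu
  have hlarge : Cfsg.IsLargeExtraspecial Q := by
    rcases h3 with ⟨k, hk, hkQ, hkz⟩ | ⟨u, hu, huz, hz', hcore⟩
    · refine (S5422.result Q hQ hL2 hL3 w hw hcard k ?_ ?_).2.2
      · intro hn
        apply hkz
        have h4 : k * z * k⁻¹ ∈ Subgroup.zpowers z := by
          rw [← hc]
          refine (Subgroup.mem_normalizer_iff.1 hn z).1 ?_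
          rw [hc]; exact Subgroup.mem_zpowers z
        have h5 := comm_of_norm hz h4
        rw [h5]; group
      · rw [hc]
        rintro _ ⟨y, hy, rfl⟩
        obtain ⟨i, hi⟩ := hy
        have hi' : z ^ i = y := hi
        rw [← hi', map_zpow]
        exact zpow_mem hkQ i
    · obtain ⟨huU, huQ⟩ := Subgroup.mem_inf.1 hu
      have hu1 : u ≠ 1 := by
        rintro rfl; exact huz (one_mem _)
      refine S5421.result Q hQ hL2 hL3 u huQ ?_ ?_ ?_
      · rw [hc]; exact huz
      · rw [orderOf_eq_prime_iff]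
        exact ⟨by rw [pow_two]; exact hUsq u huU, hu1⟩
      · rw [hc, Subgroup.zpowers_le]
        exact ⟨⟨z, hz'⟩, hcore, rfl⟩
  refine ⟨?_, hlarge⟩
  have hzM : z ∈ Subgroup.normalClosure ({z} : Set G) := Subgroup.subset_normalClosure (Set.mem_singleton z)
  have hMn : (Subgroup.normalClosure ({z} : Set G)).Normal := inferInstance
  have hCM : Subgroup.centralizer ({z} : Set G) ≤ Subgroup.normalClosure ({z} : Set G) := by
    rw [← hgen, Subgroup.closure_le]
    rintro _ ⟨c, -, u, hu, rfl⟩
    apply hMn.conj_mem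
    have hle : U ≤ Subgroup.normalClosure ({z} : Set G) := by
      rw [hU, Subgroup.closure_le]
      rintro _ ⟨k, -, rfl⟩
      exact hMn.conj_mem z hzM k
    exact hle hu
  have hQM : Q ≤ Subgroup.normalClosure ({z} : Set G) := hQC.trans hCM
  rcases structure_thm hlarge hc _ rfl with h4 | h4 | h4 | h4
  · exfalso
    have hcen : ∀ g : G, g * z = z * g := by
      intro g
      apply normalizer_le h
      rw [Subgroup.normalizer_eq_top]
      exact Subgroup.mem_top g
    have hUle : U ≤ Subgroup.zpowers z := by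
      rw [hU, Subgroup.closure_le]
      rintro _ ⟨k, -, rfl⟩
      rw [hcen k, mul_inv_cancel_right]
      exact Subgroup.mem_zpowers z
    have hCle : Subgroup.centralizer ({z} : Set G) ≤ Subgroup.zpowers z := by
      rw [← hgen, Subgroup.closure_le]
      rintro _ ⟨c, -, u, hu, rfl⟩
      obtain ⟨i, hi⟩ := hUle hu
      have hi' : z ^ i = u := hi
      have h5 : c * u * c⁻¹ = u := by
        have h6 : Commute c z := hcen c
        rw [← hi', (h6.zpow_right i).eq, mul_inv_cancel_right]
      rw [h5]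
      exact hUle hu
    have h5 := Subgroup.card_le_of_le (hQC.trans hCle)
    rw [hcard, Nat.card_zpowers, hz] at h5
    have h6 : 2 ^ 5 ≤ 2 ^ (2 * w + 1) := Nat.pow_le_pow_right (by norm_num) (by omega)
    omega
  · exact absurd h4.1 (not_comm_of_ex hQ hQM)
  · exact simple_of_le h hlarge h4.2.1 hCM
  · exfalso
    obtain ⟨-, L, u, hu, hs, -, hinf, hcomm, hsup, -⟩ := h4
    exact no_two hQM hu hs hinf hcomm hsup

theorem row5436 {z : G} (hz : orderOf z = 2) (Q : Subgroup (Subgroup.centralizer ({z} : Set G))) [Q.Normal]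
    (hF : Cfsg.generalizedFittingSubgroup ↥(Subgroup.centralizer ({z} : Set G)) = Q) (hQ : Cfsg.IsExtraspecial 2 ↥Q)
    (w : ℕ) (hw : 2 ≤ w) (hcard : Nat.card ↥Q = 2 ^ (2 * w + 1))
    (hnwc : ∃ g : G, (∃ hq : g * z * g⁻¹ ∈ Subgroup.centralizer ({z} : Set G), (⟨g * z * g⁻¹, hq⟩ : Subgroup.centralizer ({z} : Set G)) ∈ Q) ∧ g * z * g⁻¹ ≠ z)
    (hsimp : IsSimpleGroup (↥(Subgroup.centralizer ({z} : Set G)) ⧸ Q))
    (hirr : ∀ W : Subgroup (Subgroup.centralizer ({z} : Set G)), W.Normal → W ≤ Q → (W = Q ∨ ∀ x ∈ W, (x : G) ∈ Subgroup.zpowers z))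
    (hwcl : Subgroup.closure {x : Subgroup.centralizer ({z} : Set G) | IsConj z (x : G)} ≠ Q) : IsSimpleGroup G := by
  haveI : Fact (Nat.Prime 2) := ⟨Nat.prime_two⟩
  have hset : Cfsg.IsExtraspecialCentralizerSetting z Q w := ⟨hz, hF, hQ, hcard, hnwc⟩
  have h := Cfsg.Agent.H90.pl_of_setting hset
  have hcard' := Cfsg.Agent.H90.card_of_setting hset
  set Q' : Subgroup G := Q.map (Subgroup.centralizer ({z} : Set G)).subtype with hQ'
  have hQ'C : Q' ≤ (Subgroup.centralizer ({z} : Set G)) := Subgroup.map_subtype_le Q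
  obtain ⟨a, ha, b, hb, hab⟩ := Cfsg.Agent.H90.exists_not_commute_of_isExtraspecial hQ
  have hex : Cfsg.IsExtraspecial 2 ↥Q' := h.toXS.isExtraspecial (a := (a : G)) (b := (b : G))
    ⟨a, ha, rfl⟩ ⟨b, hb, rfl⟩ (fun hc => hab (Subtype.ext hc))
  have hc := h.toXS.center_eq
  obtain ⟨g, ⟨hgC, hgQ⟩, hgz⟩ := hnwc
  have hgQ' : g * z * g⁻¹ ∈ Q' := ⟨⟨g * z * g⁻¹, hgC⟩, hgQ, rfl⟩
  have hlarge : Cfsg.IsLargeExtraspecial Q' := by
    refine (S5422.result Q' hex h.centralizer_eq h.le_normalizer w hw hcard' g ?_ ?_).2.2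
    · intro hn
      apply hgz
      have h4 : g * z * g⁻¹ ∈ Subgroup.zpowers z := by
        rw [← hc]
        refine (Subgroup.mem_normalizer_iff.1 hn z).1 ?_
        rw [hc]; exact Subgroup.mem_zpowers z
      have h5 := comm_of_norm hz h4
      rw [h5]; group
    · rw [hc]
      rintro _ ⟨y, hy, rfl⟩
      obtain ⟨i, hi⟩ := hy
      have hi' : z ^ i = y := hi
      rw [← hi', map_zpow]
      exact zpow_mem hgQ' i
  -- Q = O_2((Subgroup.centralizer ({z} : Set G)))
  have hcore : Cfsg.pCore 2 ↥(Subgroup.centralizer ({z} : Set G)) = Q := by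
    rw [← generalizedFitting_eq_pCore_iff.2 (by rw [hF]; exact hQ.1.1), hF]
  have hzM : z ∈ Subgroup.normalClosure ({z} : Set G) := Subgroup.subset_normalClosure (Set.mem_singleton z)
  have hMn : (Subgroup.normalClosure ({z} : Set G)).Normal := inferInstance
  set M := Subgroup.normalClosure ({z} : Set G) with hM
  have hgM : g * z * g⁻¹ ∈ M := hMn.conj_mem z hzM g
  rcases structure_thm hlarge hc _ hM with h4 | h4 | h4 | h4
  · exfalso
    apply hgz
    have hcen : g * z = z * g := by
      apply normalizer_le h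
      rw [Subgroup.normalizer_eq_top]
      exact Subgroup.mem_top g
    rw [hcen, mul_inv_cancel_right]
  · exfalso
    -- M abelian
    have hMC : M ≤ (Subgroup.centralizer ({z} : Set G)) := by
      intro x hx
      rw [Subgroup.mem_centralizer_singleton_iff]
      exact congrArg Subtype.val (h4.1.is_comm.comm (⟨x, hx⟩ : M) ⟨z, hzM⟩)
    have hMF : M ≤ Cfsg.pCore 2 G := by
      apply Solv.le_pCore hMn
      -- M is a 2-group : contained in pCore since z is
      have h5 : z ∈ Cfsg.pCore 2 G := by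
        apply mem_of_inv h hlarge
        · intro h6
          have h7 := centralizer_generalizedFitting_le (G := G)
          rw [h4.2, h6] at h7
          have h8 : z ∈ Subgroup.centralizer ((⊥ : Subgroup G) : Set G) := by
            rw [Subgroup.mem_centralizer_iff]
            intro x hx
            have : x = 1 := hx
            rw [this, one_mul, mul_one]
          have h9 := h7 h8
          rw [Subgroup.mem_bot] at h9
          exact h.ne_one h9
        · rw [Subgroup.normalizer_eq_top]; exact le_top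
      have h6 : M ≤ Cfsg.pCore 2 G := by
        rw [hM]
        apply Subgroup.normalClosure_le_normal
        rwa [Set.singleton_subset_iff]
      exact (Solv.pCore_isPGroup 2).to_le h6
    have hWn : (M.subgroupOf (Subgroup.centralizer ({z} : Set G))).Normal := inferInstance
    have hWp : IsPGroup 2 ↥(M.subgroupOf (Subgroup.centralizer ({z} : Set G))) := by
      have h5 : IsPGroup 2 ↥M := (Solv.pCore_isPGroup 2).to_le hMF
      exact h5.comap_of_injective (Subgroup.centralizer ({z} : Set G)).subtype (Subgroup.centralizer ({z} : Set G)).subtype_injective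
    have hWQ : M.subgroupOf (Subgroup.centralizer ({z} : Set G)) ≤ Q := by
      rw [← hcore]; exact Solv.le_pCore hWn hWp
    rcases hirr _ hWn hWQ with h5 | h5
    · have hQ'M : Q' ≤ M := by
        rintro _ ⟨y, hy, rfl⟩
        rw [← h5] at hy
        exact hy
      exact not_comm_of_ex hex hQ'M h4.1
    · have h6 := h5 ⟨g * z * g⁻¹, hgC⟩ (by rw [Subgroup.mem_subgroupOf]; exact hgM)
      apply hgz
      have h7 := comm_of_norm hz h6
      rw [h7, mul_inv_cancel_right]
  · -- M simple
    have hWn : (M.subgroupOf (Subgroup.centralizer ({z} : Set G)) ⊓ Q).Normal := inferInstance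
    have hQM : Q ≤ M.subgroupOf (Subgroup.centralizer ({z} : Set G)) := by
      rcases hirr _ hWn inf_le_right with h5 | h5
      · exact inf_eq_right.1 h5
      · exfalso
        have h6 := h5 ⟨g * z * g⁻¹, hgC⟩ (Subgroup.mem_inf.2 ⟨by rw [Subgroup.mem_subgroupOf]; exact hgM, hgQ⟩)
        apply hgz
        have h7 := comm_of_norm hz h6
        rw [h7, mul_inv_cancel_right]
    have hMCn : (M.subgroupOf (Subgroup.centralizer ({z} : Set G))).Normal := inferInstance
    have h5 : ((M.subgroupOf (Subgroup.centralizer ({z} : Set G))).map (QuotientGroup.mk' Q)).Normal := hMCn.map _ (QuotientGroup.mk'_surjective Q)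
    rcases hsimp.eq_bot_or_eq_top_of_normal _ h5 with h6 | h6
    · exfalso
      apply hwcl
      have h7 : M.subgroupOf (Subgroup.centralizer ({z} : Set G)) ≤ Q := by
        rw [← QuotientGroup.ker_mk' Q]
        exact (Subgroup.map_eq_bot_iff _).1 h6
      set W := Subgroup.closure {x : (Subgroup.centralizer ({z} : Set G)) | IsConj z (x : G)} with hW
      have hWle : W ≤ Q := by
        rw [hW, Subgroup.closure_le]
        intro x hx
        apply h7
        rw [Subgroup.mem_subgroupOf]
        obtain ⟨c, hc'⟩ := isConj_iff.1 hx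
        rw [← hc']
        exact hMn.conj_mem z hzM c
      have hWn : W.Normal := by
        refine ⟨fun n hn c => ?_⟩
        rw [hW] at hn ⊢
        induction hn using Subgroup.closure_induction with
        | mem x hx =>
          apply Subgroup.subset_closure
          obtain ⟨d, hd⟩ := isConj_iff.1 hx
          change IsConj z ((c : G) * x * (c : G)⁻¹)
          rw [isConj_iff]
          refine ⟨c * d, ?_⟩
          rw [← hd]; group
        | one => rw [mul_one, mul_inv_cancel]; exact one_mem _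
        | mul x y _ _ h1 h2 =>
          have : c * (x * y) * c⁻¹ = (c * x * c⁻¹) * (c * y * c⁻¹) := by group
          rw [this]; exact mul_mem h1 h2
        | inv x _ h1 =>
          have : c * x⁻¹ * c⁻¹ = (c * x * c⁻¹)⁻¹ := by group
          rw [this]; exact inv_mem h1
      rcases hirr W hWn hWle with h8 | h8
      · exact h8
      · exfalso
        have h9 := h8 ⟨g * z * g⁻¹, hgC⟩ (Subgroup.subset_closure (isConj_iff.2 ⟨g, rfl⟩))
        apply hgz
        have h10 := comm_of_norm hz h9
        rw [h10, mul_inv_cancel_right]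
    · have h7 : M.subgroupOf (Subgroup.centralizer ({z} : Set G)) = ⊤ := by
        rw [eq_top_iff]
        intro x _
        have h8 : QuotientGroup.mk' Q x ∈ (M.subgroupOf (Subgroup.centralizer ({z} : Set G))).map (QuotientGroup.mk' Q) := by rw [h6]; exact Subgroup.mem_top _
        obtain ⟨y, hy, hyx⟩ := h8
        rw [QuotientGroup.mk'_eq_mk'] at hyx
        obtain ⟨q, hq, hqx⟩ := hyx
        rw [← hqx]
        exact mul_mem hy (hQM hq)
      apply simple_of_le h hlarge h4.2.1
      intro x hx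
      have h8 : (⟨x, hx⟩ : (Subgroup.centralizer ({z} : Set G))) ∈ M.subgroupOf (Subgroup.centralizer ({z} : Set G)) := by rw [h7]; exact Subgroup.mem_top _
      exact Subgroup.mem_subgroupOf.1 h8
  · exfalso
    obtain ⟨-, L, u, -, -, -, -, -, -, z₁, -, -, -, hne⟩ := h4
    apply hne
    rw [hcore]

end Cfsg.Agent.H64.LX
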