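import Cfsg.Agent.H64.LX4
import Cfsg.Agent.Cop.Basic
import Cfsg.Agent.H90.LargePair
import Mathlib.GroupTheory.Transfer

/-!
Large extraspecial 2-subgroups: quotients.
-/

set_option autoImplicit false
set_option linter.style.haveILetI false

namespace Cfsg.Agent.H64.LX

open Cfsg.Agent.H90 (XS PL)
open scoped commutatorElement

/-- a group with a central involution and order not divisible by 4 -/
theorem two_part {D : Type*} [Group D] [Finite D] {ζ : D} (hc : ∀ d : D, d * ζ = ζ * d) (ho : orderOf ζ = 2)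
    (h4 : ¬ 4 ∣ Nat.card D) (d : D) : d ∈ Cfsg.oddCore D ∨ d * ζ ∈ Cfsg.oddCore D := by
  haveI : Fact (Nat.Prime 2) := ⟨Nat.prime_two⟩
  have hp : IsPGroup 2 (Subgroup.zpowers ζ) := IsPGroup.of_card (n := 1) (by rw [Nat.card_zpowers, ho, pow_one])
  obtain ⟨P, hP⟩ := hp.exists_le_sylow
  have hcard : Nat.card P ≤ 2 := by
    obtain ⟨k, hk⟩ := IsPGroup.iff_card.1 P.isPGroup'
    have hk' : Nat.card P = 2 ^ k := hk
    rw [hk']
    by_contra hcon
    have h2 : 2 ≤ k := by
      by_contra hk2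
      have : k ≤ 1 := by omega
      have := Nat.pow_le_pow_right (n := 2) (by norm_num) this
      omega
    apply h4
    have h5 : (4 : ℕ) ∣ Nat.card P := by
      rw [hk', show (4 : ℕ) = 2 ^ 2 from rfl]
      exact pow_dvd_pow 2 h2
    exact h5.trans (Subgroup.card_subgroup_dvd_card _)
  have hPz : (P : Subgroup D) = Subgroup.zpowers ζ := by
    symm
    apply Subgroup.eq_of_le_of_card_ge hP
    rw [Nat.card_zpowers, ho]; exact hcard
  have hmem : ∀ x ∈ (P : Subgroup D), x = 1 ∨ x = ζ := by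
    intro x hx
    rw [hPz] at hx
    obtain ⟨k, hk⟩ := hx
    have hk' : ζ ^ k = x := hk
    have hζ : ζ * ζ = 1 := by rw [← pow_two, ← ho]; exact pow_orderOf_eq_one ζ
    rcases Int.even_or_odd' k with ⟨m, hm | hm⟩
    · left; rw [← hk', hm, zpow_mul, zpow_ofNat, pow_two, hζ, one_zpow]
    · right; rw [← hk', hm, zpow_add, zpow_mul, zpow_ofNat, pow_two, hζ, one_zpow, one_mul, zpow_one]
  have hN : Subgroup.normalizer (P : Set D) ≤ Subgroup.centralizer (P : Set D) := by
    intro g _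
    rw [Subgroup.mem_centralizer_iff]
    intro x hx
    rcases hmem x hx with h | h <;> rw [h]
    · rw [one_mul, mul_one]
    · exact (hc g).symm
  have hcompl := MonoidHom.ker_transferSylow_isComplement' P hN
  have hodd := MonoidHom.not_dvd_card_ker_transferSylow P hN
  have hle : (MonoidHom.transferSylow P hN).ker ≤ Cfsg.oddCore D := by
    apply Solv.le_pPrimeCore inferInstance
    exact ((Nat.Prime.coprime_iff_not_dvd Nat.prime_two).2 hodd).symm
  obtain ⟨⟨⟨k, hk⟩, ⟨p, hp'⟩⟩, hkp⟩ := (hcompl.existsUnique d).exists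
  have hkp' : k * p = d := hkp
  rcases hmem p hp' with h | h
  · left; rw [← hkp', h, mul_one]; exact hle hk
  · right
    have hζ : ζ * ζ = 1 := by rw [← pow_two, ← ho]; exact pow_orderOf_eq_one ζ
    rw [← hkp', h, mul_assoc, hζ, mul_one]; exact hle hk

/-- the fixed points of an odd order group are nondegenerate -/
theorem fixed_move {G : Type*} [Group G] [Finite G] {Q A : Subgroup G} {z : G} (h : XS Q z)
    (hA : A ≤ Subgroup.normalizer (Q : Set G)) (hodd : Odd (Nat.card A)) (hAz : ∀ a ∈ A, a * z = z * a)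
    {x : G} (hx : x ∈ Q) (hxA : ∀ a ∈ A, a * x = x * a) (hx1 : x ≠ 1) (hxz : x ≠ z) :
    ∃ y ∈ Q, (∀ a ∈ A, a * y = y * a) ∧ y * x * y⁻¹ = x * z := by
  haveI : Fact (Nat.Prime 2) := ⟨Nat.prime_two⟩
  by_contra hcon
  push Not at hcon
  have hQp : IsPGroup 2 Q := h.isPGroup
  have hcop : (Nat.card A).Coprime (Nat.card Q) := by
    obtain ⟨n, hn⟩ := IsPGroup.iff_card.mp hQp
    rw [hn]
    exact Nat.Coprime.pow_right n (Nat.coprime_two_right.mpr hodd)
  haveI := hQp.isNilpotent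
  have hsup := Cfsg.Agent.Cop.commutator_sup_centralizer hA hcop (Or.inr inferInstance)
  have hle : Q ≤ Subgroup.centralizer ({x} : Set G) := by
    conv_lhs => rw [← hsup]
    refine sup_le ?_ ?_
    · rw [Subgroup.commutator_le]
      intro q hq a ha
      rw [Subgroup.mem_centralizer_singleton_iff]
      have hxa : a * x = x * a := hxA a ha
      have hq' : a * q * a⁻¹ ∈ Q := (Subgroup.mem_normalizer_iff.1 (hA ha) q).1 hq
      have hcc : ⁅q, a⁆ = q * (a * q * a⁻¹)⁻¹ := by rw [commutatorElement_def]; group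
      rw [hcc]
      have h1 : x * (a * q * a⁻¹) * x⁻¹ = a * (x * q * x⁻¹) * a⁻¹ := by
        have hxa' : x⁻¹ * a = a * x⁻¹ := by
          rw [inv_mul_eq_iff_eq_mul, ← mul_assoc, ← hxa]; group
        calc x * (a * q * a⁻¹) * x⁻¹ = (x * a) * q * (x * a)⁻¹ := by group
          _ = (a * x) * q * (a * x)⁻¹ := by rw [hxa]
          _ = _ := by group
      have haz : a * z * a⁻¹ = z := by rw [hAz a ha]; group
      rcases h.conj_eq hq hx with h2 | h2
      · have h3 : x * (a * q * a⁻¹) * x⁻¹ = a * q * a⁻¹ := by rw [h1, h2]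
        have h4 : x * (q * (a * q * a⁻¹)⁻¹) * x⁻¹ = q * (a * q * a⁻¹)⁻¹ := by
          calc x * (q * (a * q * a⁻¹)⁻¹) * x⁻¹ = (x * q * x⁻¹) * (x * (a * q * a⁻¹) * x⁻¹)⁻¹ := by group
            _ = _ := by rw [h2, h3]
        rw [mul_inv_eq_iff_eq_mul] at h4
        exact h4.symm
      · have h3 : x * (a * q * a⁻¹) * x⁻¹ = (a * q * a⁻¹) * z := by
          rw [h1, h2]
          calc a * (q * z) * a⁻¹ = (a * q * a⁻¹) * (a * z * a⁻¹) := by group
            _ = _ := by rw [haz]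
        have h4 : x * (q * (a * q * a⁻¹)⁻¹) * x⁻¹ = q * (a * q * a⁻¹)⁻¹ := by
          calc x * (q * (a * q * a⁻¹)⁻¹) * x⁻¹ = (x * q * x⁻¹) * (x * (a * q * a⁻¹) * x⁻¹)⁻¹ := by group
            _ = (q * z) * ((a * q * a⁻¹) * z)⁻¹ := by rw [h2, h3]
            _ = _ := by group
        rw [mul_inv_eq_iff_eq_mul] at h4
        exact h4.symm
    · intro y hy
      obtain ⟨hyQ, hyA⟩ := Subgroup.mem_inf.1 hy
      rw [Subgroup.mem_centralizer_singleton_iff]
      rcases h.conj_eq hx hyQ with h1 | h1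
      · rw [mul_inv_eq_iff_eq_mul] at h1; exact h1
      · exact absurd h1 (hcon y hyQ (fun a ha => Subgroup.mem_centralizer_iff.1 hyA a ha))
  rcases h.nondeg x hx (fun y hy => (Subgroup.mem_centralizer_singleton_iff.1 (hle hy)).symm) with h1 | h1
  · exact hx1 h1
  · exact hxz h1

/-- largeness from a conjugate -/
theorem isLarge_of_conj {N : Type*} [Group N] [Finite N] {P : Subgroup N} {z : N} (h : PL P z)
    (hcard : 8 < Nat.card P) {n : N} (hn : n * z * n⁻¹ ∈ P) (hne : n * z * n⁻¹ ≠ z) : Cfsg.IsLargeExtraspecial P := by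
  have h' := h.conj n
  set s := n * z * n⁻¹ with hs
  obtain ⟨q, hq, hqs⟩ := h.exists_conj hn h'.ne_one hne
  have hex : Cfsg.IsExtraspecial 2 ↥P := by
    apply h.toXS.isExtraspecial hq hn
    intro hc
    have h1 : q * s * q⁻¹ = s := by rw [hc]; group
    rw [h1] at hqs
    exact h.ne_one (mul_eq_left.1 hqs.symm)
  have hzQ' : z ∈ P.map (MulAut.conj n).toMonoidHom := by
    apply h.mem_of_mem h' hcard hn hne
    intro x hx1 hx2
    have := h.conj_mem n x hx1 hn
    rw [hx2] at this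
    exact this
  refine h.isLarge hex ?_
  intro K hK hQK
  refine h.odd_trivial_of_fpf hn h'.sq h'.ne_one hne K hK hQK ?_
  intro k hk hks
  apply h.inf_centralizer_eq_one K hK hQK k hk
  have h1 : k * z * k⁻¹ * z⁻¹ ∈ P.map (MulAut.conj n).toMonoidHom :=
    mul_mem (h'.norm k hks z hzQ') (inv_mem hzQ')
  have h2 : k * z * k⁻¹ * z⁻¹ ∈ K := by
    have : k * (z * k⁻¹ * z⁻¹) ∈ K := K.mul_mem hk (hQK z h.mem _ (K.inv_mem hk))
    convert this using 1; group
  have h3 := H90.eq_one_of_mem_odd_of_pow hK h2 (n := 2) (h'.pow_four h1)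
  rw [mul_inv_eq_one, mul_inv_eq_iff_eq_mul] at h3
  exact h3

/-- the pair: `z ∈ Q^g` -/
theorem mem_conj_of_mem {G : Type*} [Group G] [Finite G] {Q : Subgroup G} {z : G} (h : PL Q z)
    (hcard : 8 < Nat.card Q) {n : G} (hn : n * z * n⁻¹ ∈ Q) (hne : n * z * n⁻¹ ≠ z) :
    z ∈ Q.map (MulAut.conj n).toMonoidHom := by
  have h' := h.conj n
  apply h.mem_of_mem h' hcard hn hne
  intro x hx1 hx2
  have := h.conj_mem n x hx1 hn
  rw [hx2] at this
  exact this

/-- images -/
theorem pl_map {M B : Type*} [Group M] [Group B] (f : M →* B) (hf : Function.Surjective f) {P : Subgroup M} {z : M}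
    (hz : z ∈ P) (hzk : f z ≠ 1) (hzz : z * z = 1) (hcen : ∀ x ∈ P, x * z = z * x)
    (hcomm : ∀ x ∈ P, ∀ y ∈ P, x * y = y * x ∨ x * y = z * (y * x))
    (hnd : ∀ x ∈ P, (∀ y ∈ P, x * y = y * x) → f x = 1 ∨ f x = f z)
    (hc : ∀ m : M, (∀ x ∈ P, f (m * x * m⁻¹ * x⁻¹) = 1) → f m = 1 ∨ f m = f z)
    (hn : ∀ m : M, f (m * z * m⁻¹ * z⁻¹) = 1 → ∀ x ∈ P, f (m * x * m⁻¹) ∈ P.map f) : PL (P.map f) (f z) where
  mem := ⟨z, hz, rfl⟩
  ne_one := hzk
  sq := by rw [← map_mul, hzz, map_one]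
  central := by
    rintro _ ⟨x, hx, rfl⟩
    rw [← map_mul, hcen x hx, map_mul]
  comm := by
    rintro _ ⟨x, hx, rfl⟩ _ ⟨y, hy, rfl⟩
    rcases hcomm x hx y hy with h | h
    · left; rw [← map_mul, h, map_mul]
    · right; rw [← map_mul, h, map_mul, map_mul]
  nondeg := by
    rintro _ ⟨x, hx, rfl⟩ h
    apply hnd x hx
    intro y hy
    rcases hcomm x hx y hy with h1 | h1
    · exact h1
    · exfalso
      apply hzk
      have h2 := h (f y) ⟨y, hy, rfl⟩
      rw [← map_mul, h1, map_mul, map_mul] at h2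
      exact mul_eq_right.1 h2
  cent := by
    intro b hb
    obtain ⟨m, rfl⟩ := hf b
    apply hc m
    intro x hx
    have h1 := hb (f x) ⟨x, hx, rfl⟩
    rw [map_mul, map_mul, map_mul, h1, map_inv, map_inv]
    group
  norm := by
    intro b hb
    obtain ⟨m, rfl⟩ := hf b
    rintro _ ⟨x, hx, rfl⟩
    have h1 : f (m * z * m⁻¹ * z⁻¹) = 1 := by
      rw [map_mul, map_mul, map_mul, hb, map_inv, map_inv]
      group
    have := hn m h1 x hx
    rwa [map_mul, map_mul, map_inv] at this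

end Cfsg.Agent.H64.LX
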