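import Cfsg.Agent.H64.LX5

/-!
Large extraspecial 2-subgroups: centralisers of odd order subgroups and of involutions.
-/

set_option autoImplicit false
set_option linter.style.haveILetI false

namespace Cfsg.Agent.H64.LX

open Cfsg.Agent.H90 (XS PL)
open Cfsg.Agent.FStar (mem_sup_of_le_normalizer)

variable {G : Type*} [Group G] [Finite G]

theorem row5428 (z : G) (hz : orderOf z = 2) (Q : Subgroup G) (hQC : Q ≤ Subgroup.centralizer ({z} : Set G))
    (hF : (Cfsg.generalizedFittingSubgroup ↥(Subgroup.centralizer ({z} : Set G))).map (Subgroup.centralizer ({z} : Set G)).subtype = Q)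
    (hQ : Cfsg.IsExtraspecial 2 ↥Q) (A : Subgroup G) (hA : A ≤ Subgroup.centralizer ({z} : Set G))
    (hAodd : Odd (Nat.card ↥A)) (R : Subgroup G) (hR : R = Q ⊓ Subgroup.centralizer (A : Set G)) (hR32 : 32 ≤ Nat.card ↥R)
    (hO : (Cfsg.oddCore ↥(Subgroup.centralizer ((A ⊔ R : Subgroup G) : Set G))).map (Subgroup.centralizer ((A ⊔ R : Subgroup G) : Set G)).subtype ≤ A)
    (h4 : ¬ 4 ∣ Nat.card ↥(Subgroup.centralizer ((A ⊔ R : Subgroup G) : Set G))) (g : G) (hgR : g * z * g⁻¹ ∈ R)
    (hgZ : g * z * g⁻¹ ∉ ((Subgroup.center ↥Q).map Q.subtype)) (M : Subgroup G) (hM : M = Subgroup.centralizer (A : Set G) ⊔ A)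
    [hn : (A.subgroupOf M).Normal] :
    (M ⊓ Subgroup.centralizer ((R ⊔ A : Subgroup G) : Set G)) ⊔ A = A ⊔ ((Subgroup.center ↥Q).map Q.subtype) ∧
    Cfsg.IsLargeExtraspecial ((R.subgroupOf M).map (QuotientGroup.mk' (A.subgroupOf M))) ∧
    ∃ x ∈ R ⊔ ((Q).map (MulAut.conj g).toMonoidHom ⊓ Subgroup.centralizer (A : Set G)), x * (g * z * g⁻¹) * x⁻¹ = z := by
  obtain ⟨h, hc⟩ := pl_of_fstar hz hQC hF hQ
  rw [hc] at hgZ ⊢
  set s := g * z * g⁻¹ with hs
  have hAz : ∀ a ∈ A, a * z = z * a := fun a ha => Subgroup.mem_centralizer_singleton_iff.1 (hA ha)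
  have hAQ : A ≤ Subgroup.normalizer (Q : Set G) := by
    intro a ha
    rw [Subgroup.mem_normalizer_iff]
    intro q
    constructor
    · exact fun hq => h.norm a (hAz a ha) q hq
    · intro hq
      have := h.norm a⁻¹ (hAz _ (inv_mem ha)) _ hq
      simpa [mul_assoc] using this
  have hRQ : R ≤ Q := by rw [hR]; exact inf_le_left
  have hRA : ∀ x ∈ R, ∀ a ∈ A, a * x = x * a := by
    intro x hx a ha
    rw [hR] at hx
    exact Subgroup.mem_centralizer_iff.1 (Subgroup.mem_inf.1 hx).2 a ha
  have hmR : ∀ x ∈ Q, (∀ a ∈ A, a * x = x * a) → x ∈ R := by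
    intro x hx hxa
    rw [hR]
    exact Subgroup.mem_inf.2 ⟨hx, Subgroup.mem_centralizer_iff.2 hxa⟩
  have hzR : z ∈ R := hmR z h.mem hAz
  have hsz : s ≠ z := fun h1 => hgZ (by rw [h1]; exact Subgroup.mem_zpowers z)
  have hs1 : s ≠ 1 := (h.conj g).ne_one
  have hsQ : s ∈ Q := hRQ hgR
  have hsA := hRA s hgR
  have hcardR : 8 < Nat.card R := by omega
  have hcard : 8 < Nat.card Q := lt_of_lt_of_le hcardR (Subgroup.card_le_of_le hRQ)
  have h' := h.conj g
  rw [← hs] at h'
  have hzQ' : z ∈ Q.map (MulAut.conj g).toMonoidHom := mem_conj_of_mem h hcard hsQ hsz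
  -- part 3
  have part3 : ∃ x ∈ R ⊔ ((Q).map (MulAut.conj g).toMonoidHom ⊓ Subgroup.centralizer (A : Set G)), x * s * x⁻¹ = z := by
    obtain ⟨q, hqQ, hqA, hqs⟩ := fixed_move h.toXS hAQ hAodd hAz hsQ hsA hs1 hsz
    have hAQ' : A ≤ Subgroup.normalizer ((Q.map (MulAut.conj g).toMonoidHom : Subgroup G) : Set G) := by
      intro a ha
      rw [Subgroup.mem_normalizer_iff]
      intro q
      constructor
      · exact fun hq => h'.norm a (hsA a ha) q hq
      · intro hq
        have := h'.norm a⁻¹ (hsA _ (inv_mem ha)) _ hq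
        simpa [mul_assoc] using this
    obtain ⟨y, hyQ, hyA, hyz⟩ := fixed_move h'.toXS hAQ' hAodd hsA hzQ' hAz h.ne_one hsz.symm
    refine ⟨y * q, ?_, ?_⟩
    · apply mul_mem
      · exact Subgroup.mem_sup_right (Subgroup.mem_inf.2 ⟨hyQ, Subgroup.mem_centralizer_iff.2 hyA⟩)
      · exact Subgroup.mem_sup_left (hmR q hqQ hqA)
    · have hys : y * s * y⁻¹ = s := by rw [h'.central y hyQ]; group
      calc y * q * s * (y * q)⁻¹ = y * (q * s * q⁻¹) * y⁻¹ := by group
        _ = y * (s * z) * y⁻¹ := by rw [hqs]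
        _ = (y * s * y⁻¹) * (y * z * y⁻¹) := by group
        _ = s * (z * s) := by rw [hys, hyz]
        _ = s * (s * z) := by rw [h.central s hsQ]
        _ = z := by rw [← mul_assoc, h'.sq, one_mul]
  -- the centraliser of A R
  have hD : ∀ d : G, d ∈ Subgroup.centralizer ((A ⊔ R : Subgroup G) : Set G) → d ∈ A ∨ d * z ∈ A := by
    intro d hd
    have hzD : z ∈ Subgroup.centralizer ((A ⊔ R : Subgroup G) : Set G) := by
      have h1 : A ⊔ R ≤ Subgroup.centralizer ({z} : Set G) := sup_le hA (hRQ.trans hQC)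
      rw [Subgroup.mem_centralizer_iff]
      intro x hx
      exact Subgroup.mem_centralizer_singleton_iff.1 (h1 hx)
    have h1 := two_part (D := ↥(Subgroup.centralizer ((A ⊔ R : Subgroup G) : Set G))) (ζ := ⟨z, hzD⟩) ?_ ?_ h4 ⟨d, hd⟩
    · rcases h1 with h1 | h1
      · left; exact hO ⟨_, h1, rfl⟩
      · right; exact hO ⟨_, h1, rfl⟩
    · rintro ⟨x, hx⟩
      apply Subtype.ext
      exact (Subgroup.mem_centralizer_iff.1 hx z (Subgroup.mem_sup_right hzR)).symm
    · rw [← Subgroup.orderOf_coe]; exact hz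
  have hCM : Subgroup.centralizer (A : Set G) ≤ M := by rw [hM]; exact le_sup_left
  have hAM : A ≤ M := by rw [hM]; exact le_sup_right
  have hRC : R ≤ Subgroup.centralizer (A : Set G) := fun x hx => Subgroup.mem_centralizer_iff.2 (hRA x hx)
  have hRM : R ≤ M := hRC.trans hCM
  have hzA : z ∉ A := fun h1 => h.ne_one (H90.eq_one_of_mem_odd_of_pow hAodd h1 (n := 1) (by rw [pow_one, pow_two, h.sq]))
  refine ⟨?_, ?_, part3⟩
  · apply le_antisymm
    · apply sup_le _ le_sup_left
      intro d hd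
      have hd2 := (Subgroup.mem_inf.1 hd).2
      rw [sup_comm] at hd2
      rcases hD d hd2 with h1 | h1
      · exact Subgroup.mem_sup_left h1
      · have h2 : d = (d * z) * z := by rw [mul_assoc, h.sq, mul_one]
        rw [h2]
        exact mul_mem (Subgroup.mem_sup_left h1) (Subgroup.mem_sup_right (Subgroup.mem_zpowers z))
    · apply sup_le le_sup_right
      rw [Subgroup.zpowers_le]
      apply Subgroup.mem_sup_left
      refine Subgroup.mem_inf.2 ⟨hRM hzR, ?_⟩
      rw [Subgroup.mem_centralizer_iff]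
      intro x hx
      have h1 : R ⊔ A ≤ Subgroup.centralizer ({z} : Set G) := sup_le (hRQ.trans hQC) hA
      exact Subgroup.mem_centralizer_singleton_iff.1 (h1 hx)
  · -- the quotient
    set f := QuotientGroup.mk' (A.subgroupOf M) with hf
    have hfs : Function.Surjective f := QuotientGroup.mk'_surjective _
    have hf1 : ∀ m : M, f m = 1 ↔ (m : G) ∈ A := by
      intro m
      rw [hf, QuotientGroup.mk'_apply, QuotientGroup.eq_one_iff, Subgroup.mem_subgroupOf]
    -- representatives in C(A)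
    have hrep : ∀ m : M, ∃ c : M, (c : G) ∈ Subgroup.centralizer (A : Set G) ∧ f m = f c := by
      rintro ⟨m, hm⟩
      have hm' := hm
      rw [hM] at hm'
      obtain ⟨c, hc1, a, ha, hca⟩ := mem_sup_of_le_normalizer (Subgroup.centralizer_le_normalizer _) hm'
      refine ⟨⟨c, hCM hc1⟩, hc1, ?_⟩
      have h1 : (⟨m, hm⟩ : M) = ⟨c, hCM hc1⟩ * ⟨a, hAM ha⟩ := Subtype.ext hca.symm
      rw [h1, map_mul, (hf1 ⟨a, hAM ha⟩).2 ha, mul_one]
    -- odd elements
    have hodd : ∀ c ∈ Subgroup.centralizer (A : Set G), ∀ r ∈ R, c * r * c⁻¹ * r⁻¹ ∈ A → c * r * c⁻¹ * r⁻¹ = 1 := by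
      intro c hc1 r hr ha
      apply H90.eq_one_of_mem_odd_of_pow hAodd ha (n := 2)
      have h1 : Commute (c * r * c⁻¹ * r⁻¹) r := hRA r hr _ ha
      have h2 : c * r * c⁻¹ = (c * r * c⁻¹ * r⁻¹) * r := by group
      have h3 : (c * r * c⁻¹) ^ 4 = 1 := by
        rw [conj_pow, h.pow_four (hRQ hr), mul_one, mul_inv_cancel]
      rw [h2, h1.mul_pow, h.pow_four (hRQ hr), mul_one] at h3
      exact h3
    have hz0 : z ∈ M := hRM hzR
    have hpl : PL ((R.subgroupOf M).map f) (f ⟨z, hz0⟩) := by
      apply pl_map f hfs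
      · exact Subgroup.mem_subgroupOf.2 hzR
      · intro h1; exact hzA ((hf1 _).1 h1)
      · exact Subtype.ext h.sq
      · intro x hx
        exact Subtype.ext (h.central x (hRQ (Subgroup.mem_subgroupOf.1 hx)))
      · intro x hx y hy
        rcases h.comm x (hRQ (Subgroup.mem_subgroupOf.1 hx)) y (hRQ (Subgroup.mem_subgroupOf.1 hy)) with h1 | h1
        · left; exact Subtype.ext h1
        · right; exact Subtype.ext h1
      · intro x hx hxc
        have hxR := Subgroup.mem_subgroupOf.1 hx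
        by_cases hx1 : (x : G) = 1
        · left; rw [show x = 1 from Subtype.ext hx1, map_one]
        · by_cases hxz : (x : G) = z
          · right; rw [show x = ⟨z, hz0⟩ from Subtype.ext hxz]
          · exfalso
            obtain ⟨y, hyQ, hyA, hyx⟩ := fixed_move h.toXS hAQ hAodd hAz (hRQ hxR) (hRA _ hxR) hx1 hxz
            have hyR := hmR y hyQ hyA
            have h1 := congrArg Subtype.val (hxc ⟨y, hRM hyR⟩ (Subgroup.mem_subgroupOf.2 hyR))
            have h1' : (x : G) * y = y * x := h1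
            rw [← h1', mul_inv_cancel_right] at hyx
            exact h.ne_one (mul_eq_left.1 hyx.symm)
      · intro m hm
        obtain ⟨c, hcA, hmc⟩ := hrep m
        have h1 : ∀ r ∈ R, r * (c : G) = c * r := by
          intro r hr
          have h2 := hm ⟨r, hRM hr⟩ (Subgroup.mem_subgroupOf.2 hr)
          rw [map_mul, map_mul, map_mul, map_inv, map_inv, hmc, ← map_mul, ← map_inv, ← map_mul, ← map_inv, ← map_mul,
            hf1] at h2
          have h3 := hodd c hcA r hr h2
          rw [mul_inv_eq_one, mul_inv_eq_iff_eq_mul] at h3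
          exact h3.symm
        have hcD : (c : G) ∈ Subgroup.centralizer ((A ⊔ R : Subgroup G) : Set G) := by
          have h2 : A ⊔ R ≤ Subgroup.centralizer ({(c : G)} : Set G) := by
            apply sup_le
            · intro a ha
              rw [Subgroup.mem_centralizer_singleton_iff]
              exact Subgroup.mem_centralizer_iff.1 hcA a ha
            · intro r hr
              rw [Subgroup.mem_centralizer_singleton_iff]
              exact h1 r hr
          rw [Subgroup.mem_centralizer_iff]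
          intro x hx
          exact Subgroup.mem_centralizer_singleton_iff.1 (h2 hx)
        rw [hmc]
        rcases hD c hcD with h2 | h2
        · left; exact (hf1 c).2 h2
        · right
          have h3 : f (c * ⟨z, hz0⟩) = 1 := (hf1 _).2 h2
          have h4 : c = (c * ⟨z, hz0⟩) * ⟨z, hz0⟩ := by
            apply Subtype.ext
            change (c : G) = c * z * z
            rw [mul_assoc, h.sq, mul_one]
          rw [h4, map_mul, h3, one_mul]
      · intro m hm x hx
        obtain ⟨c, hcA, hmc⟩ := hrep m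
        rw [map_mul, map_mul, map_mul, map_inv, map_inv, hmc, ← map_mul, ← map_inv, ← map_mul, ← map_inv, ← map_mul,
          hf1] at hm
        have h3 := hodd c hcA z hzR hm
        rw [mul_inv_eq_one, mul_inv_eq_iff_eq_mul] at h3
        have hxR := Subgroup.mem_subgroupOf.1 hx
        have h4 : (c : G) * x * (c : G)⁻¹ ∈ R := by
          rw [hR]
          refine Subgroup.mem_inf.2 ⟨h.norm c h3 x (hRQ hxR), ?_⟩
          exact mul_mem (mul_mem hcA (hRC hxR)) (inv_mem hcA)
        refine ⟨c * x * c⁻¹, Subgroup.mem_subgroupOf.2 h4, ?_⟩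
        rw [map_mul, map_mul, map_inv, map_mul, map_mul, map_inv, hmc]
    obtain ⟨x, hx, hxs⟩ := part3
    have hxM : x ∈ M := by
      have h1 : R ⊔ ((Q).map (MulAut.conj g).toMonoidHom ⊓ Subgroup.centralizer (A : Set G)) ≤ M :=
        sup_le hRM (inf_le_right.trans hCM)
      exact h1 hx
    have hcard' : 8 < Nat.card ((R.subgroupOf M).map f) := by
      have h1 : Function.Injective (fun r : R => (⟨f ⟨r, hRM r.2⟩, ⟨⟨r, hRM r.2⟩, Subgroup.mem_subgroupOf.2 r.2, rfl⟩⟩ :
          (R.subgroupOf M).map f)) := by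
        intro a b hab
        have h2 : f ⟨a, hRM a.2⟩ = f ⟨b, hRM b.2⟩ := congrArg Subtype.val hab
        rw [hf, QuotientGroup.mk'_eq_mk'] at h2
        obtain ⟨w, hw, hwab⟩ := h2
        have h3 : (w : G) = (a : G)⁻¹ * b := by
          have := congrArg Subtype.val hwab
          change (a : G) * w = b at this
          rw [← this]; group
        have h4 : (w : G) ∈ R := by rw [h3]; exact mul_mem (inv_mem a.2) b.2
        have h5 : (w : G) = 1 := H90.eq_one_of_mem_odd_of_pow hAodd (Subgroup.mem_subgroupOf.1 hw) (n := 2)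
          (h.pow_four (hRQ h4))
        rw [h5] at h3
        exact Subtype.ext (inv_mul_eq_one.1 h3.symm)
      have h2 := Nat.card_le_card_of_injective _ h1
      omega
    have hs' : f ⟨x⁻¹, inv_mem hxM⟩ * f ⟨z, hz0⟩ * (f ⟨x⁻¹, inv_mem hxM⟩)⁻¹ = f ⟨s, hRM hgR⟩ := by
      rw [← map_mul, ← map_inv, ← map_mul]
      congr 1
      apply Subtype.ext
      change x⁻¹ * z * x⁻¹⁻¹ = s
      rw [← hxs]; group
    apply isLarge_of_conj hpl hcard' (n := f ⟨x⁻¹, inv_mem hxM⟩)
    · rw [hs']
      exact ⟨_, Subgroup.mem_subgroupOf.2 hgR, rfl⟩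
    · rw [hs']
      intro h1
      rw [hf, QuotientGroup.mk'_eq_mk'] at h1
      obtain ⟨w, hw, hws⟩ := h1
      have h3 : (w : G) = s⁻¹ * z := by
        have := congrArg Subtype.val hws
        change s * w = z at this
        rw [← this]; group
      have h4 : (w : G) ∈ Q := by rw [h3]; exact mul_mem (inv_mem hsQ) h.mem
      have h5 : (w : G) = 1 := H90.eq_one_of_mem_odd_of_pow hAodd (Subgroup.mem_subgroupOf.1 hw) (n := 2)
        (h.pow_four h4)
      rw [h5] at h3
      exact hsz (inv_mul_eq_one.1 h3.symm)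

end Cfsg.Agent.H64.LX
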