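import Cfsg.Agent.H64.LX5

/-!
Large extraspecial 2-subgroups: centralisers of involutions.
-/

set_option autoImplicit false
set_option linter.style.haveILetI false

namespace Cfsg.Agent.H64.LX

open Cfsg.Agent.H90 (XS PL)

variable {G : Type*} [Group G] [Finite G]

/-- the double centraliser of an involution, elementwise -/
theorem four_of_comm {Q : Subgroup G} {z t : G} (h : XS Q z) (ht : t ∈ Q) (ht2 : t * t = 1) (ht1 : t ≠ 1) (htz : t ≠ z)
    {x : G} (hx : x ∈ Q) (hc : ∀ y ∈ Q, y * t = t * y → x * y = y * x) : x = 1 ∨ x = z ∨ x = t ∨ x = z * t := by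
  rw [← Cfsg.Agent.H90.card_sup_zpowers_of_involutions h.sq ht2 h.ne_one ht1 htz (h.central t ht), ← h.double ht ht2 ht1 htz]
  refine Subgroup.mem_inf.2 ⟨hx, ?_⟩
  rw [Subgroup.mem_centralizer_iff]
  intro y hy
  exact (hc y (Subgroup.mem_inf.1 hy).1 (Subgroup.mem_centralizer_singleton_iff.1 (Subgroup.mem_inf.1 hy).2)).symm

/-- moving an element inside the centraliser of an involution -/
theorem inv_move {Q : Subgroup G} {z t : G} (h : XS Q z) (ht : t ∈ Q) (ht2 : t * t = 1) (ht1 : t ≠ 1) (htz : t ≠ z)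
    {x : G} (hx : x ∈ Q) (hn : ¬ (x = 1 ∨ x = z ∨ x = t ∨ x = z * t)) :
    ∃ y ∈ Q, y * t = t * y ∧ y * x * y⁻¹ = x * z := by
  by_contra hcon
  push Not at hcon
  apply hn
  apply four_of_comm h ht ht2 ht1 htz hx
  intro y hy hyt
  rcases h.conj_eq hx hy with h1 | h1
  · rw [mul_inv_eq_iff_eq_mul] at h1; exact h1.symm
  · exact absurd h1 (hcon y hy hyt)

theorem row5429 (z : G) (hz : orderOf z = 2) (Q : Subgroup G) (hQC : Q ≤ Subgroup.centralizer ({z} : Set G))
    (hF : (Cfsg.generalizedFittingSubgroup ↥(Subgroup.centralizer ({z} : Set G))).map (Subgroup.centralizer ({z} : Set G)).subtype = Q)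
    (hQ : Cfsg.IsExtraspecial 2 ↥Q) (w : ℕ) (hw : 3 ≤ w) (hcard : Nat.card ↥Q = 2 ^ (2 * w + 1)) (g : G)
    (hgQ : g * z * g⁻¹ ∈ Q) (hgZ : g * z * g⁻¹ ∉ ((Subgroup.center ↥Q).map Q.subtype)) (t : G) (ht : orderOf t = 2)
    (htQ : t ∈ Q ⊓ (Q).map (MulAut.conj g).toMonoidHom) (htz : ¬ IsConj z t) (P : Subgroup G)
    (hP : P = Q ⊓ Subgroup.centralizer ({t} : Set G))
    (hCP : ∀ c ∈ Subgroup.centralizer ({z} : Set G), (∀ x ∈ P, ∃ y ∈ Subgroup.closure ({t, z} : Set G), c * x * c⁻¹ = x * y) ↔ c ∈ Q)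
    [hn : ((Subgroup.zpowers t).subgroupOf (Subgroup.centralizer ({t} : Set G))).Normal] :
    Cfsg.IsLargeExtraspecial ((P.subgroupOf (Subgroup.centralizer ({t} : Set G))).map (QuotientGroup.mk' ((Subgroup.zpowers t).subgroupOf (Subgroup.centralizer ({t} : Set G))))) ∧
    ∃ x ∈ P ⊔ ((Q).map (MulAut.conj g).toMonoidHom ⊓ Subgroup.centralizer ({t} : Set G)), x * (g * z * g⁻¹) * x⁻¹ = z := by
  obtain ⟨h, hc⟩ := pl_of_fstar hz hQC hF hQ
  rw [hc] at hgZ
  set s := g * z * g⁻¹ with hs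
  obtain ⟨htQ1, htQ2⟩ := Subgroup.mem_inf.1 htQ
  have ht1 : t ≠ 1 := by rintro rfl; rw [orderOf_one] at ht; omega
  have ht2 : t * t = 1 := by rw [← pow_two, ← ht]; exact pow_orderOf_eq_one t
  have hti : t⁻¹ = t := inv_eq_of_mul_eq_one_left ht2
  have hsz : s ≠ z := fun h1 => hgZ (by rw [h1]; exact Subgroup.mem_zpowers z)
  have h' := h.conj g
  rw [← hs] at h'
  have hs1 : s ≠ 1 := h'.ne_one
  have hcard8 : 128 ≤ Nat.card Q := by
    rw [hcard]
    calc 128 = 2 ^ 7 := rfl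
      _ ≤ 2 ^ (2 * w + 1) := Nat.pow_le_pow_right (by norm_num) (by omega)
  have hzQ' : z ∈ Q.map (MulAut.conj g).toMonoidHom := mem_conj_of_mem h (by omega) hgQ hsz
  have htz' : t ≠ z := fun h1 => htz (by rw [h1])
  have hts : t ≠ s := fun h1 => htz (by rw [h1]; exact isConj_iff.2 ⟨g, rfl⟩)
  have htc : t * z = z * t := h.central t htQ1
  have htcs : t * s = s * t := h'.central t htQ2
  have hsc : s * z = z * s := h.central s hgQ
  -- `z s` is conjugate to `z`
  have htzs : t ≠ z * s := by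
    intro h1
    apply htz
    obtain ⟨q, hq, hqz⟩ := h'.exists_conj hzQ' h.ne_one hsz.symm
    rw [h1, ← hqz]
    exact isConj_iff.2 ⟨q, rfl⟩
  -- `t z` is conjugate to `t`
  have htz2 : ¬ IsConj z (t * z) := by
    intro h1
    apply htz
    obtain ⟨q, hq, hqt⟩ := h.exists_conj htQ1 ht1 htz'
    rw [← hqt] at h1
    exact h1.trans (isConj_iff.2 ⟨q⁻¹, by group⟩)
  have part2 : ∃ x ∈ P ⊔ ((Q).map (MulAut.conj g).toMonoidHom ⊓ Subgroup.centralizer ({t} : Set G)), x * s * x⁻¹ = z := by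
    obtain ⟨q, hqQ, hqt, hqs⟩ := inv_move h.toXS htQ1 ht2 ht1 htz' hgQ (by
      rintro (h1 | h1 | h1 | h1)
      · exact hs1 h1
      · exact hsz h1
      · exact hts h1.symm
      · apply htzs
        rw [h1, ← mul_assoc, h.sq, one_mul])
    obtain ⟨y, hyQ, hyt, hyz⟩ := inv_move h'.toXS htQ2 ht2 ht1 hts hzQ' (by
      rintro (h1 | h1 | h1 | h1)
      · exact h.ne_one h1
      · exact hsz h1.symm
      · exact htz' h1.symm
      · apply htzs
        rw [h1, ← htcs, mul_assoc, h'.sq, mul_one])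
    refine ⟨y * q, ?_, ?_⟩
    · apply mul_mem
      · exact Subgroup.mem_sup_right (Subgroup.mem_inf.2 ⟨hyQ, Subgroup.mem_centralizer_singleton_iff.2 hyt⟩)
      · apply Subgroup.mem_sup_left
        rw [hP]
        exact Subgroup.mem_inf.2 ⟨hqQ, Subgroup.mem_centralizer_singleton_iff.2 hqt⟩
    · have hys : y * s * y⁻¹ = s := by rw [h'.central y hyQ]; group
      calc y * q * s * (y * q)⁻¹ = y * (q * s * q⁻¹) * y⁻¹ := by group
        _ = y * (s * z) * y⁻¹ := by rw [hqs]
        _ = (y * s * y⁻¹) * (y * z * y⁻¹) := by group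
        _ = s * (z * s) := by rw [hys, hyz]
        _ = s * (s * z) := by rw [hsc]
        _ = z := by rw [← mul_assoc, h'.sq, one_mul]
  refine ⟨?_, part2⟩
  have hPQ : P ≤ Q := by rw [hP]; exact inf_le_left
  have hPt : P ≤ Subgroup.centralizer ({t} : Set G) := by rw [hP]; exact inf_le_right
  have hmP : ∀ x ∈ Q, x * t = t * x → x ∈ P := by
    intro x hx hxt
    rw [hP]; exact Subgroup.mem_inf.2 ⟨hx, Subgroup.mem_centralizer_singleton_iff.2 hxt⟩
  have hPc : ∀ x ∈ P, x * t = t * x := fun x hx => Subgroup.mem_centralizer_singleton_iff.1 (hPt hx)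
  have hzP : z ∈ P := hmP z h.mem htc.symm
  have hsP : s ∈ P := hmP s hgQ htcs.symm
  have htmem : ∀ x : G, x ∈ Subgroup.zpowers t ↔ x = 1 ∨ x = t := by
    intro x
    constructor
    · rintro ⟨k, hk⟩
      have hk' : t ^ k = x := hk
      rcases Int.even_or_odd' k with ⟨m, hm | hm⟩
      · left; rw [← hk', hm, zpow_mul, zpow_ofNat, pow_two, ht2, one_zpow]
      · right; rw [← hk', hm, zpow_add, zpow_mul, zpow_ofNat, pow_two, ht2, one_zpow, one_mul, zpow_one]
    · rintro (rfl | rfl)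
      · exact one_mem _
      · exact Subgroup.mem_zpowers x
  set f := QuotientGroup.mk' ((Subgroup.zpowers t).subgroupOf (Subgroup.centralizer ({t} : Set G))) with hf
  have hfs : Function.Surjective f := QuotientGroup.mk'_surjective _
  have hf1 : ∀ m : ↥(Subgroup.centralizer ({t} : Set G)), f m = 1 ↔ (m : G) = 1 ∨ (m : G) = t := by
    intro m
    rw [hf, QuotientGroup.mk'_apply, QuotientGroup.eq_one_iff, Subgroup.mem_subgroupOf, htmem]
  have hz0 : z ∈ Subgroup.centralizer ({t} : Set G) := hPt hzP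
  have ht0 : t ∈ Subgroup.centralizer ({t} : Set G) := Subgroup.mem_centralizer_singleton_iff.2 rfl
  have hfour : ∀ m : ↥(Subgroup.centralizer ({t} : Set G)), ((m : G) = 1 ∨ (m : G) = z ∨ (m : G) = t ∨ (m : G) = z * t) →
      f m = 1 ∨ f m = f ⟨z, hz0⟩ := by
    intro m hm
    rcases hm with h1 | h1 | h1 | h1
    · left; exact (hf1 m).2 (Or.inl h1)
    · right; rw [show m = ⟨z, hz0⟩ from Subtype.ext h1]
    · left; exact (hf1 m).2 (Or.inr h1)
    · right
      have h2 : m = ⟨z, hz0⟩ * ⟨t, ht0⟩ := Subtype.ext h1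
      rw [h2, map_mul, (hf1 ⟨t, ht0⟩).2 (Or.inr rfl), mul_one]
  have hz_cent : ∀ m : G, (m * z * m⁻¹ * z⁻¹ = 1 ∨ m * z * m⁻¹ * z⁻¹ = t) → m * z = z * m := by
    intro m hm
    rcases hm with h1 | h1
    · rw [mul_inv_eq_one, mul_inv_eq_iff_eq_mul] at h1; exact h1
    · exfalso
      apply htz2
      rw [mul_inv_eq_iff_eq_mul] at h1
      rw [← h1]
      exact isConj_iff.2 ⟨m, rfl⟩
  have hcommP : ∀ m ∈ Q, ∀ x ∈ Q, (m * x * m⁻¹ * x⁻¹ = 1 ∨ m * x * m⁻¹ * x⁻¹ = t) → m * x = x * m := by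
    intro m hm x hx h1
    rcases h1 with h1 | h1
    · rw [mul_inv_eq_one, mul_inv_eq_iff_eq_mul] at h1; exact h1
    · rcases h.conj_eq hx hm with h2 | h2
      · rw [mul_inv_eq_iff_eq_mul] at h2; exact h2
      · exfalso
        apply htz'
        rw [← h1, h2, h.central x hx]; group
  have hpl : PL ((P.subgroupOf (Subgroup.centralizer ({t} : Set G))).map f) (f ⟨z, hz0⟩) := by
    apply pl_map f hfs
    · exact Subgroup.mem_subgroupOf.2 hzP
    · intro h1
      rcases (hf1 _).1 h1 with h2 | h2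
      · exact h.ne_one h2
      · exact htz' h2.symm
    · exact Subtype.ext h.sq
    · intro x hx
      exact Subtype.ext (h.central x (hPQ (Subgroup.mem_subgroupOf.1 hx)))
    · intro x hx y hy
      rcases h.comm x (hPQ (Subgroup.mem_subgroupOf.1 hx)) y (hPQ (Subgroup.mem_subgroupOf.1 hy)) with h1 | h1
      · left; exact Subtype.ext h1
      · right; exact Subtype.ext h1
    · intro x hx hxc
      apply hfour
      apply four_of_comm h.toXS htQ1 ht2 ht1 htz' (hPQ (Subgroup.mem_subgroupOf.1 hx))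
      intro y hy hyt
      have hyP := hmP y hy hyt
      exact congrArg Subtype.val (hxc ⟨y, hPt hyP⟩ (Subgroup.mem_subgroupOf.2 hyP))
    · intro m hm
      have hmz : (m : G) * z = z * m := hz_cent m ((hf1 _).1 (hm ⟨z, hz0⟩ (Subgroup.mem_subgroupOf.2 hzP)))
      have hmQ : (m : G) ∈ Q := by
        rw [← hCP m (Subgroup.mem_centralizer_singleton_iff.2 hmz)]
        intro x hx
        have h1 := (hf1 _).1 (hm ⟨x, hPt hx⟩ (Subgroup.mem_subgroupOf.2 hx))
        have h1' : (m : G) * x * (m : G)⁻¹ * x⁻¹ = 1 ∨ (m : G) * x * (m : G)⁻¹ * x⁻¹ = t := h1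
        rcases h1' with h2 | h2
        · refine ⟨1, one_mem _, ?_⟩
          rw [mul_inv_eq_one] at h2
          rw [h2, mul_one]
        · refine ⟨t, Subgroup.subset_closure (by simp), ?_⟩
          rw [mul_inv_eq_iff_eq_mul] at h2
          rw [h2]; exact (hPc x hx).symm
      apply hfour
      apply four_of_comm h.toXS htQ1 ht2 ht1 htz' hmQ
      intro y hy hyt
      have hyP := hmP y hy hyt
      exact hcommP m hmQ y hy ((hf1 _).1 (hm ⟨y, hPt hyP⟩ (Subgroup.mem_subgroupOf.2 hyP)))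
    · intro m hm x hx
      have hmz : (m : G) * z = z * m := hz_cent m ((hf1 _).1 hm)
      have hxP := Subgroup.mem_subgroupOf.1 hx
      refine ⟨m * x * m⁻¹, ?_, rfl⟩
      rw [SetLike.mem_coe, Subgroup.mem_subgroupOf, hP]
      exact Subgroup.mem_inf.2 ⟨h.norm m hmz x (hPQ hxP), (m * x * m⁻¹).2⟩
  -- cardinality
  have hcard' : 8 < Nat.card ((P.subgroupOf (Subgroup.centralizer ({t} : Set G))).map f) := by
    have h1 := h.toXS.card_centralizer htQ1 ht2 ht1 htz'
    rw [← hP] at h1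
    have h2 : Nat.card P ≤ 2 * Nat.card ((P.subgroupOf (Subgroup.centralizer ({t} : Set G))).map f) := by
      have h3 : f.ker.relIndex (P.subgroupOf (Subgroup.centralizer ({t} : Set G))) =
          Nat.card ((P.subgroupOf (Subgroup.centralizer ({t} : Set G))).map f) := Subgroup.relIndex_ker _ f
      have h4 := Subgroup.card_mul_index (f.ker.subgroupOf (P.subgroupOf (Subgroup.centralizer ({t} : Set G))))
      have h5 : Nat.card (P.subgroupOf (Subgroup.centralizer ({t} : Set G))) = Nat.card P :=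
        Nat.card_congr (Subgroup.subgroupOfEquivOfLe hPt).toEquiv
      have h6 : Nat.card (f.ker.subgroupOf (P.subgroupOf (Subgroup.centralizer ({t} : Set G)))) ≤ 2 := by
        have h7 : Function.Injective (fun x : f.ker.subgroupOf (P.subgroupOf (Subgroup.centralizer ({t} : Set G))) =>
            (⟨(((x : ↥(P.subgroupOf (Subgroup.centralizer ({t} : Set G)))) : ↥(Subgroup.centralizer ({t} : Set G))) : G),
              (htmem _).2 ((hf1 _).1 (MonoidHom.mem_ker.1 (Subgroup.mem_subgroupOf.1 x.2)))⟩ : Subgroup.zpowers t)) := by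
          intro a b hab
          have h8 := congrArg Subtype.val hab
          exact Subtype.ext (Subtype.ext (Subtype.ext h8))
        have h8 := Nat.card_le_card_of_injective _ h7
        rwa [Nat.card_zpowers, ht] at h8
      rw [← h5, ← h4]
      have h9 : (f.ker.subgroupOf (P.subgroupOf (Subgroup.centralizer ({t} : Set G)))).index =
          Nat.card ((P.subgroupOf (Subgroup.centralizer ({t} : Set G))).map f) := h3
      rw [h9]
      exact Nat.mul_le_mul_right _ h6
    omega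
  obtain ⟨x, hx, hxs⟩ := part2
  have hxM : x ∈ Subgroup.centralizer ({t} : Set G) := by
    have h1 : P ⊔ ((Q).map (MulAut.conj g).toMonoidHom ⊓ Subgroup.centralizer ({t} : Set G)) ≤ Subgroup.centralizer ({t} : Set G) :=
      sup_le hPt inf_le_right
    exact h1 hx
  have hs' : f ⟨x⁻¹, inv_mem hxM⟩ * f ⟨z, hz0⟩ * (f ⟨x⁻¹, inv_mem hxM⟩)⁻¹ = f ⟨s, hPt hsP⟩ := by
    rw [← map_mul, ← map_inv, ← map_mul]
    congr 1
    apply Subtype.ext
    change x⁻¹ * z * x⁻¹⁻¹ = s
    rw [← hxs]; group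
  apply isLarge_of_conj hpl hcard' (n := f ⟨x⁻¹, inv_mem hxM⟩)
  · rw [hs']
    exact ⟨_, Subgroup.mem_subgroupOf.2 hsP, rfl⟩
  · rw [hs']
    intro h1
    have h2 : f (⟨s, hPt hsP⟩ * ⟨z, hz0⟩⁻¹) = 1 := by rw [map_mul, map_inv, h1, mul_inv_cancel]
    have h3 := (hf1 _).1 h2
    have h4 : s * z⁻¹ = 1 ∨ s * z⁻¹ = t := h3
    rw [h.toXS.inv_z] at h4
    rcases h4 with h4 | h4
    · apply hsz
      rw [mul_eq_one_iff_eq_inv, h.toXS.inv_z] at h4
      exact h4
    · apply htzs
      rw [← h4, hsc]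

end Cfsg.Agent.H64.LX
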