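import Mathlib
import Cfsg.Agent.H64.RtK0
import Cfsg.Agent.C2Ab.RtCD

/-! Piece KC of S2755 (helper64 for helper92) -/

set_option autoImplicit false
set_option linter.unusedVariables false
set_option linter.unusedSectionVars false

namespace Cfsg.Agent.H64.Rt

open Cfsg Cfsg.Agent Cfsg.Agent.H92.Rt

section

variable {K : Type*} [Group K] [Fintype K] {q m : ℕ} {U A : Subgroup K} {k s r : K}

/-- the action of `N(U)` on `U` -/
def act (U : Subgroup K) (b : Subgroup.normalizer (U : Set K)) (x : U) : U :=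
  ⟨(b : K) * x * (b : K)⁻¹, (Subgroup.mem_normalizer_iff.1 b.2 x).1 x.2⟩

theorem act_coe (b : Subgroup.normalizer (U : Set K)) (x : U) : ((act U b x : U) : K) = (b : K) * x * (b : K)⁻¹ := rfl

theorem act_bij (b : Subgroup.normalizer (U : Set K)) : Function.Bijective (act U b) := by
  apply Function.Injective.bijective_of_finite
  intro x y h
  have h1 : (b : K) * x * (b : K)⁻¹ = (b : K) * y * (b : K)⁻¹ := congrArg Subtype.val h
  apply Subtype.ext
  exact mul_left_cancel (mul_right_cancel h1)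

theorem act_ne_one {b : Subgroup.normalizer (U : Set K)} {x : U} (hx : x ≠ 1) : act U b x ≠ 1 := by
  intro h
  apply hx
  have h1 : (b : K) * x * (b : K)⁻¹ = 1 := congrArg Subtype.val h
  apply Subtype.ext
  rw [mul_inv_eq_one] at h1
  exact mul_eq_left.1 h1

variable [Fintype U] [Fintype (Subgroup.normalizer (U : Set K))] [DecidableEq U]

/-- the number of `b` with `b x b⁻¹ = y` -/
def nn (U : Subgroup K) [Fintype (Subgroup.normalizer (U : Set K))] [DecidableEq U] (x y : U) : ℕ :=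
  (Finset.univ.filter (fun b : Subgroup.normalizer (U : Set K) => act U b x = y)).card

theorem nn_ge (D : KD q m U A k s r) {x y : U} {b : Subgroup.normalizer (U : Set K)} (h : act U b x = y) :
    q ≤ nn U x y := by
  rw [← D.cardU, Nat.card_eq_fintype_card, ← Finset.card_univ]
  apply Finset.card_le_card_of_injOn (fun u : U => b * (⟨u, Subgroup.le_normalizer u.2⟩ : Subgroup.normalizer (U : Set K)))
  · intro u _
    rw [Finset.mem_coe, Finset.mem_filter]
    refine ⟨Finset.mem_univ _, ?_⟩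
    rw [← h]
    apply Subtype.ext
    show (b * u : K) * x * (b * u : K)⁻¹ = b * x * (b : K)⁻¹
    have h1 := D.Ucomm u u.2 x x.2
    calc (b * u : K) * x * (b * u : K)⁻¹ = b * (u * x) * (u : K)⁻¹ * (b : K)⁻¹ := by group
      _ = b * (x * u) * (u : K)⁻¹ * (b : K)⁻¹ := by rw [h1]
      _ = _ := by group
  · intro u _ v _ huv
    have h1 := congrArg Subtype.val (mul_left_cancel huv)
    exact Subtype.ext h1

theorem nn_sum (x : U) : ∑ y : U, nn U x y = Nat.card (Subgroup.normalizer (U : Set K)) := by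
  rw [Nat.card_eq_fintype_card, ← Finset.card_univ]
  exact (Finset.card_eq_sum_card_fiberwise (fun b _ => Finset.mem_coe.2 (Finset.mem_univ _))).symm

theorem nn_eq (D : KD q m U A k s r) {x : U} (hx : x ≠ 1) (y : U) :
    nn U x y + nn U x y⁻¹ = if y = 1 then 0 else q := by
  have hle : ∀ y ∈ (Finset.univ : Finset U), (if y = 1 then 0 else q) ≤ nn U x y + nn U x y⁻¹ := by
    intro y _
    split_ifs with hy
    · exact Nat.zero_le _
    · obtain ⟨g, hg⟩ := D.Ucl x x.2 (fun h => hx (Subtype.ext h)) y y.2 (fun h => hy (Subtype.ext h))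
      have hgU : g * x * g⁻¹ ∈ U := by
        rcases hg with h | h
        · rw [h]; exact y.2
        · rw [h]; exact U.inv_mem y.2
      have hgB := D.UTI g x x.2 (fun h => hx (Subtype.ext h)) hgU
      rcases hg with h | h
      · have := nn_ge D (x := x) (y := y) (b := ⟨g, hgB⟩) (Subtype.ext h)
        omega
      · have := nn_ge D (x := x) (y := y⁻¹) (b := ⟨g, hgB⟩) (Subtype.ext h)
        omega
  have hsum : ∑ y : U, (if y = 1 then 0 else q) = ∑ y : U, (nn U x y + nn U x y⁻¹) := by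
    rw [Finset.sum_add_distrib]
    have h1 : ∑ y : U, nn U x y⁻¹ = ∑ y : U, nn U x y := Equiv.sum_comp (Equiv.inv U) (fun y => nn U x y)
    rw [h1, nn_sum x]
    have h2 : ∑ y : U, (if y = 1 then 0 else q) = (q - 1) * q := by
      rw [Finset.sum_ite, Finset.sum_const_zero, zero_add, Finset.sum_const, smul_eq_mul]
      congr 1
      have h3 : Finset.univ.filter (fun y : U => ¬ y = 1) = Finset.univ.erase 1 := by
        ext y
        simp
      rw [h3, Finset.card_erase_of_mem (Finset.mem_univ _), Finset.card_univ, ← Nat.card_eq_fintype_card, D.cardU]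
    rw [h2]
    have h4 := D.cardNU
    rw [mul_comm (q - 1) q, ← h4]
    ring
  exact (((Finset.sum_eq_sum_iff_of_le hle).1 hsum) y (Finset.mem_univ _)).symm

theorem sum_act (x : U) (F : U → ℂ) : ∑ b : Subgroup.normalizer (U : Set K), F (act U b x) = ∑ y : U, (nn U x y : ℂ) * F y := by
  have h1 : ∀ b : Subgroup.normalizer (U : Set K), F (act U b x) = ∑ y : U, if act U b x = y then F y else 0 := by
    intro b
    rw [Finset.sum_ite_eq]
    simp
  calc ∑ b : Subgroup.normalizer (U : Set K), F (act U b x) = ∑ b : Subgroup.normalizer (U : Set K), ∑ y : U, (if act U b x = y then F y else 0) :=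
        Finset.sum_congr rfl (fun b _ => h1 b)
    _ = ∑ y : U, ∑ b : Subgroup.normalizer (U : Set K), (if act U b x = y then F y else 0) := Finset.sum_comm
    _ = _ := by
      apply Finset.sum_congr rfl
      intro y _
      rw [Finset.sum_ite, Finset.sum_const_zero, add_zero, Finset.sum_const, nsmul_eq_mul]
      rfl

theorem sum_mu (D : KD q m U A k s r) {μ : U →* ℂ} (hμ : μ ≠ 1) {x : U} (hx : x ≠ 1) :
    ∑ b : Subgroup.normalizer (U : Set K), (μ (act U b x) + μ (act U b x)⁻¹) = -(q : ℂ) := by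
  rw [sum_act x (fun y => μ y + μ y⁻¹)]
  have h1 : ∑ y : U, (nn U x y : ℂ) * (μ y + μ y⁻¹) = ∑ y : U, ((nn U x y + nn U x y⁻¹ : ℕ) : ℂ) * μ y := by
    have h2 : ∑ y : U, (nn U x y : ℂ) * μ y⁻¹ = ∑ y : U, (nn U x y⁻¹ : ℂ) * μ y := by
      rw [← Equiv.sum_comp (Equiv.inv U)]
      apply Finset.sum_congr rfl
      intro y _
      simp
    calc ∑ y : U, (nn U x y : ℂ) * (μ y + μ y⁻¹) = ∑ y : U, (nn U x y : ℂ) * μ y + ∑ y : U, (nn U x y : ℂ) * μ y⁻¹ := by
          rw [← Finset.sum_add_distrib]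
          exact Finset.sum_congr rfl (fun y _ => mul_add _ _ _)
      _ = ∑ y : U, (nn U x y : ℂ) * μ y + ∑ y : U, (nn U x y⁻¹ : ℂ) * μ y := by rw [h2]
      _ = _ := by
          rw [← Finset.sum_add_distrib]
          refine Finset.sum_congr rfl (fun y _ => ?_)
          push_cast
          ring
  rw [h1]
  have h3 : ∀ y : U, ((nn U x y + nn U x y⁻¹ : ℕ) : ℂ) * μ y = (q : ℂ) * μ y - (if y = 1 then (q : ℂ) else 0) := by
    intro y
    rw [nn_eq D hx y]
    split_ifs with hy
    · rw [hy, map_one]; push_cast; ring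
    · ring
  rw [Finset.sum_congr rfl (fun y _ => h3 y), Finset.sum_sub_distrib, ← Finset.mul_sum, sum_hom_units_eq_zero μ hμ]
  simp

theorem averaging (D : KD q m U A k s r) (g : K → ℂ) (hcl : ∀ x y : K, g (x * y * x⁻¹) = g y) {μ : U →* ℂ} (hμ : μ ≠ 1) :
    ((q : ℂ) - 1) * ∑ x : U, g x * (μ x + μ x⁻¹) = 2 * ((q : ℂ) - 1) * g 1 - 2 * ((∑ x : U, g x) - g 1) := by
  set T := ∑ x : U, g x * (μ x + μ x⁻¹) with hT
  have h1 : ∀ b : Subgroup.normalizer (U : Set K), T = ∑ x : U, g x * (μ (act U b x) + μ (act U b x)⁻¹) := by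
    intro b
    rw [hT, ← (act_bij b).sum_comp (fun x : U => g x * (μ x + μ x⁻¹))]
    apply Finset.sum_congr rfl
    intro x _
    rw [act_coe, hcl]
  have h2 : (Nat.card (Subgroup.normalizer (U : Set K)) : ℂ) * T = ∑ x : U, g x * ∑ b : Subgroup.normalizer (U : Set K),
      (μ (act U b x) + μ (act U b x)⁻¹) := by
    calc (Nat.card (Subgroup.normalizer (U : Set K)) : ℂ) * T = ∑ b : Subgroup.normalizer (U : Set K), T := by
          rw [Finset.sum_const, Finset.card_univ, ← Nat.card_eq_fintype_card, nsmul_eq_mul]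
      _ = ∑ b : Subgroup.normalizer (U : Set K), ∑ x : U, g x * (μ (act U b x) + μ (act U b x)⁻¹) :=
          Finset.sum_congr rfl (fun b _ => h1 b)
      _ = ∑ x : U, ∑ b : Subgroup.normalizer (U : Set K), g x * (μ (act U b x) + μ (act U b x)⁻¹) := Finset.sum_comm
      _ = _ := Finset.sum_congr rfl (fun x _ => (Finset.mul_sum _ _ _).symm)
  have h3 : ∀ x : U, g x * ∑ b : Subgroup.normalizer (U : Set K), (μ (act U b x) + μ (act U b x)⁻¹) =
      -(q : ℂ) * g x + (if x = 1 then ((q : ℂ) + 2 * (Nat.card (Subgroup.normalizer (U : Set K)) : ℂ)) * g 1 else 0) := by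
    intro x
    split_ifs with hx
    · have h4 : ∀ b : Subgroup.normalizer (U : Set K), act U b 1 = 1 := by
        intro b
        apply Subtype.ext
        show (b : K) * 1 * (b : K)⁻¹ = 1
        group
      rw [hx]
      simp only [h4, inv_one, map_one]
      rw [Finset.sum_const, Finset.card_univ, ← Nat.card_eq_fintype_card, nsmul_eq_mul]
      show g 1 * _ = -(q : ℂ) * g 1 + _
      ring
    · rw [sum_mu D hμ hx]; ring
  rw [Finset.sum_congr rfl (fun x _ => h3 x), Finset.sum_add_distrib, ← Finset.mul_sum, Finset.sum_ite_eq'] at h2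
  rw [if_pos (Finset.mem_univ _)] at h2
  have h5 : (Nat.card (Subgroup.normalizer (U : Set K)) : ℂ) * 2 = (q : ℂ) * ((q : ℂ) - 1) := by
    have h6 := D.cardNU
    have h7 : 1 ≤ q := by have := D.q27; omega
    have h8 : ((Nat.card (Subgroup.normalizer (U : Set K)) * 2 : ℕ) : ℂ) = ((q * (q - 1) : ℕ) : ℂ) := by rw [h6]
    push_cast [Nat.cast_sub h7] at h8
    exact h8
  have hq : (q : ℂ) ≠ 0 := by
    have := D.q27
    exact Nat.cast_ne_zero.2 (by omega)
  apply mul_left_cancel₀ hq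
  linear_combination 2 * h2 - T * h5 + 2 * g 1 * h5
end

theorem exists_mu {K : Type*} [Group K] [Finite K] {q m : ℕ} {U A : Subgroup K} {k s r : K} (D : KD q m U A k s r) :
    ∃ μ : U →* ℂ, μ ≠ 1 := by
  classical
  letI : CommGroup U := { (inferInstance : Group U) with mul_comm := fun a b => Subtype.ext (D.Ucomm a a.2 b b.2) }
  obtain ⟨x, hx⟩ : ∃ x : U, x ≠ 1 := by
    by_contra hcon
    push Not at hcon
    have h1 : Nat.card U = 1 := by
      rw [Nat.card_eq_one_iff_unique]
      exact ⟨⟨fun a b => (hcon a).trans (hcon b).symm⟩, ⟨1⟩⟩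
    have h2 := D.cardU
    have h3 := D.q27
    omega
  obtain ⟨ν, hν⟩ := CommGroup.exists_apply_ne_one_of_hasEnoughRootsOfUnity U ℂ hx
  refine ⟨(Units.coeHom ℂ).comp ν, ?_⟩
  intro h
  apply hν
  have h1 := DFunLike.congr_fun h x
  apply Units.ext
  exact h1

/-- [KC] -/
theorem c_int {G : Type*} [Group G] [Fintype G] {t : G} {K : Subgroup G} [Fintype K] {q m : ℕ} {U A : Subgroup K}
    [Fintype A] {k s r : K} (D : RD t K q m U A k s r) {χ : G → ℂ} (hχ : IsCharacter G χ) {θ : A →* ℂ} (h1 : θ ≠ 1)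
    {φ : K → ℂ} (hφ : IsPhi q U A θ φ) :
    ∃ z w : ℤ, 4 * ∑ y : K, χ (t * (y : G)) * φ y = (z : ℂ) * ((q : ℂ) * ((q : ℂ) ^ 2 - 1)) ∧
      ∑ a : A, χ ((a : K) : G) * θ a⁻¹ = ((z : ℂ) + 2 * w) * (m : ℂ) := by
  classical
  haveI : Fintype U := Fintype.ofFinite _
  haveI : Fintype (Subgroup.normalizer (U : Set K)) := Fintype.ofFinite _
  have hcl := CharBase.isClassFunction_of_isCharacter hχ
  have htk : ∀ y : K, t * (y : G) = (y : G) * t := fun y => ((D.cent y).2 ⟨y, Or.inl rfl⟩).symm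
  set g : K → ℂ := fun y => χ (t * (y : G)) with hg
  have hgcl : ∀ x y : K, g (x * y * x⁻¹) = g y := by
    intro x y
    show χ (t * ((x * y * x⁻¹ : K) : G)) = χ (t * (y : G))
    rw [← hcl (t * (y : G)) (x : G)]
    congr 1
    show t * ((x : G) * y * (x : G)⁻¹) = (x : G) * (t * y) * (x : G)⁻¹
    calc t * ((x : G) * y * (x : G)⁻¹) = (t * (x : G)) * y * (x : G)⁻¹ := by group
      _ = ((x : G) * t) * y * (x : G)⁻¹ := by rw [htk x]
      _ = _ := by group
  set f : K → ℂ := fun y => g y * φ y with hf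
  have hK0 := sum_formula D.kd f (fun x y => by show g _ * φ _ = g y * φ y; rw [hgcl, hφ.cl])
    (fun y hy => by show g y * φ y = 0; rw [hφ.sup y hy, mul_zero])
  obtain ⟨μ, hμ⟩ := exists_mu D.kd
  let μ' : U →* ℂ :=
    { toFun := fun x => μ x⁻¹
      map_one' := by rw [inv_one, map_one]
      map_mul' := fun x y => by rw [mul_inv_rev, map_mul, mul_comm] }
  obtain ⟨a1, b1, -, hU1⟩ := C2Ab.RtCD.exists_nat_parts hχ D.t2 (K.subtype.comp U.subtype) (fun h => htk h) μ
  obtain ⟨a2, b2, -, hU2⟩ := C2Ab.RtCD.exists_nat_parts hχ D.t2 (K.subtype.comp U.subtype) (fun h => htk h) μ'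
  obtain ⟨a, b, hA1, hA2⟩ := C2Ab.RtCD.exists_nat_parts hχ D.t2 (K.subtype.comp A.subtype) (fun h => htk h) θ
  rw [D.kd.cardU] at hU1 hU2
  rw [D.kd.cardA] at hA1 hA2
  have hU1' : ∑ x : U, g x * μ x⁻¹ = ((a1 : ℂ) - b1) * q := hU1
  have hU2' : ∑ x : U, g x * μ x = ((a2 : ℂ) - b2) * q := by
    rw [← hU2]
    apply Finset.sum_congr rfl
    intro x _
    show g x * μ x = g x * μ (x⁻¹)⁻¹
    rw [inv_inv]
  have hT : ∑ x : U, g x * (μ x + μ x⁻¹) = ((a2 : ℂ) - b2 + (a1 - b1)) * q := by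
    rw [add_mul, ← hU1', ← hU2', ← Finset.sum_add_distrib]
    exact Finset.sum_congr rfl (fun x _ => mul_add _ _ _)
  have hav := averaging D.kd g hgcl hμ
  rw [hT] at hav
  -- the sum over `A`
  have hA2' : ∑ x : A, g x * θ x⁻¹ = ((a : ℂ) - b) * m := hA2
  have hginv : ∀ x : A, g ((x⁻¹ : A) : K) = g x := by
    intro x
    rw [← hgcl s x]
    congr 1
    exact (D.kd.sA x x.2).symm
  have hA3 : ∑ x : A, g x * θ x = ((a : ℂ) - b) * m := by
    rw [← hA2', ← Equiv.sum_comp (Equiv.inv A)]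
    apply Finset.sum_congr rfl
    intro x _
    show g ((x⁻¹ : A) : K) * θ x⁻¹ = _
    rw [hginv]
  have hfA : ∑ x : A, f x = f 1 - (2 * ((a : ℂ) - b) * m - 2 * g 1) := by
    have h3 : ∀ x : A, f x = -(g x * (θ x + θ x⁻¹)) + (if x = 1 then f 1 + 2 * g 1 else 0) := by
      intro x
      split_ifs with hx
      · rw [hx]
        show f 1 = -(g 1 * (θ 1 + θ (1 : A)⁻¹)) + _
        rw [inv_one, map_one]
        ring
      · show g x * φ x = _
        rw [hφ.onA x hx]
        ring
    rw [Finset.sum_congr rfl (fun x _ => h3 x), Finset.sum_add_distrib, Finset.sum_ite_eq', if_pos (Finset.mem_univ _),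
      Finset.sum_neg_distrib]
    have h4 : ∑ x : A, g x * (θ x + θ x⁻¹) = 2 * ((a : ℂ) - b) * m := by
      rw [Finset.sum_congr rfl (fun (x : A) _ => mul_add (g x) (θ x) (θ x⁻¹)), Finset.sum_add_distrib, hA3, hA2']
      ring
    rw [h4]; ring
  have hfU : ∑ x : U, f x = f 1 - ((∑ x : U, g x) - g 1) := by
    have h3 : ∀ x : U, f x = -(g x) + (if x = 1 then f 1 + g 1 else 0) := by
      intro x
      split_ifs with hx
      · rw [hx]
        show f 1 = -(g 1) + _
        ring
      · show g x * φ x = _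
        rw [hφ.onU x x.2 (fun h => hx (Subtype.ext h))]
        ring
    rw [Finset.sum_congr rfl (fun x _ => h3 x), Finset.sum_add_distrib, Finset.sum_ite_eq', if_pos (Finset.mem_univ _),
      Finset.sum_neg_distrib]
    ring
  have hfB : ∑ x : Subgroup.normalizer (U : Set K), f x = ∑ x : U, f x := by
    have h3 := finsum_diff (Subgroup.normalizer (U : Set K)) U Subgroup.le_normalizer f
    have h4 : ∑ᶠ u ∈ {u : K | u ∈ Subgroup.normalizer (U : Set K) ∧ u ∉ U}, f u = 0 := by
      apply finsum_mem_eq_zero_of_forall_eq_zero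
      intro u hu
      show g u * φ u = 0
      rw [hφ.onB u hu.1 hu.2, mul_zero]
    rw [h4] at h3
    exact (sub_eq_zero.1 h3.symm)
  have hf1 : f 1 = g 1 * ((q : ℂ) - 1) := by
    show g 1 * φ 1 = _
    rw [hφ.one]
  rw [hfB, hfU, hfA, hf1] at hK0
  have hqm : (q : ℂ) + 1 = 4 * m := by
    have := D.kd.qm
    exact_mod_cast this
  refine ⟨2 * ((a2 : ℤ) - b2 + (a1 - b1)) - ((a : ℤ) - b), (a : ℤ) - ((a2 : ℤ) - b2 + (a1 - b1)), ?_, ?_⟩
  · show 4 * ∑ y : K, f y = _
    push_cast
    have hm : (m : ℂ) = ((q : ℂ) + 1) / 4 := by rw [hqm]; ring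
    rw [hm] at hK0
    linear_combination 2 * hK0 - 2 * ((q : ℂ) + 1) * hav
  · have hA1' : ∑ a : A, χ ((a : K) : G) * θ a⁻¹ = ((a : ℂ) + b) * m := hA1
    rw [hA1']
    push_cast
    ring

end Cfsg.Agent.H64.Rt
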