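import Mathlib

set_option autoImplicit false

namespace Cfsg.Agent.H64.SyI

variable {G : Type*} [Group G]

structure SQ (z : G) (Q : Subgroup G) : Prop where
  z2 : z * z = 1
  z1 : z ≠ 1
  zQ : z ∈ Q
  cz : ∀ q ∈ Q, q * z = z * q
  nrm : ∀ c, c * z = z * c → ∀ q ∈ Q, c * q * c⁻¹ ∈ Q
  comm : ∀ x ∈ Q, ∀ y ∈ Q, x * y * x⁻¹ * y⁻¹ = 1 ∨ x * y * x⁻¹ * y⁻¹ = z
  sqz : ∀ x ∈ Q, x * x = 1 ∨ x * x = z
  cen : ∀ x ∈ Q, (∀ y ∈ Q, y * x = x * y) → x * x = 1 → x = 1 ∨ x = z
  act : ∀ c, c * z = z * c → (∀ q ∈ Q, c * q * c⁻¹ * q⁻¹ = 1 ∨ c * q * c⁻¹ * q⁻¹ = z) → c ∈ Q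
  two : (∀ c, c * z = z * c → c ^ 8 = 1) → ∀ c, c * z = z * c → c ∈ Q

namespace SQ

variable {z : G} {Q : Subgroup G}

theorem mem_map {g x : G} : x ∈ Q.map (MulAut.conj g).toMonoidHom ↔ g⁻¹ * x * g ∈ Q := by
  constructor
  · rintro ⟨y, hy, rfl⟩
    have : g⁻¹ * (MulAut.conj g).toMonoidHom y * g = y := by
      change g⁻¹ * (g * y * g⁻¹) * g = y
      group
    rw [this]; exact hy
  · intro h
    exact ⟨_, h, by change g * (g⁻¹ * x * g) * g⁻¹ = x; group⟩

theorem conj_iff {g x y : G} : x = g * y * g⁻¹ ↔ g⁻¹ * x * g = y := by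
  constructor
  · rintro rfl; group
  · rintro rfl; group

theorem conj (h : SQ z Q) (g : G) : SQ (g * z * g⁻¹) (Q.map (MulAut.conj g).toMonoidHom) := by
  have hcz : ∀ c : G, c * (g * z * g⁻¹) = (g * z * g⁻¹) * c → (g⁻¹ * c * g) * z = z * (g⁻¹ * c * g) := by
    intro c hc
    calc (g⁻¹ * c * g) * z = g⁻¹ * (c * (g * z * g⁻¹)) * g := by group
      _ = z * (g⁻¹ * c * g) := by rw [hc]; group
  constructor
  · calc g * z * g⁻¹ * (g * z * g⁻¹) = g * (z * z) * g⁻¹ := by group
      _ = 1 := by rw [h.z2]; group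
  · intro h1
    apply h.z1
    calc z = g⁻¹ * (g * z * g⁻¹) * g := by group
      _ = 1 := by rw [h1]; group
  · exact ⟨z, h.zQ, rfl⟩
  · intro q hq
    rw [mem_map] at hq
    have := h.cz _ hq
    calc q * (g * z * g⁻¹) = g * (g⁻¹ * q * g * z) * g⁻¹ := by group
      _ = g * z * g⁻¹ * q := by rw [this]; group
  · intro c hc q hq
    rw [mem_map] at hq ⊢
    have := h.nrm _ (hcz c hc) _ hq
    have e : g⁻¹ * c * g * (g⁻¹ * q * g) * (g⁻¹ * c * g)⁻¹ = g⁻¹ * (c * q * c⁻¹) * g := by group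
    rwa [e] at this
  · intro x hx y hy
    rw [mem_map] at hx hy
    have e : g⁻¹ * x * g * (g⁻¹ * y * g) * (g⁻¹ * x * g)⁻¹ * (g⁻¹ * y * g)⁻¹ = g⁻¹ * (x * y * x⁻¹ * y⁻¹) * g := by group
    rcases h.comm _ hx _ hy with h1 | h1
    · left
      rw [e] at h1
      have := conj_iff.2 h1
      rw [this]; group
    · right
      rw [e] at h1
      exact conj_iff.2 h1
  · intro x hx
    rw [mem_map] at hx
    have e : g⁻¹ * x * g * (g⁻¹ * x * g) = g⁻¹ * (x * x) * g := by group
    rcases h.sqz _ hx with h1 | h1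
    · left
      rw [e] at h1
      have := conj_iff.2 h1
      rw [this]; group
    · right
      rw [e] at h1
      exact conj_iff.2 h1
  · intro x hx hxc hx2
    rw [mem_map] at hx
    have e : g⁻¹ * x * g * (g⁻¹ * x * g) = g⁻¹ * (x * x) * g := by group
    rcases h.cen _ hx (by
      intro y hy
      have h1 := hxc (g * y * g⁻¹) ⟨y, hy, rfl⟩
      calc y * (g⁻¹ * x * g) = g⁻¹ * (g * y * g⁻¹ * x) * g := by group
        _ = g⁻¹ * x * g * y := by rw [h1]; group) (by rw [e, hx2]; group) with h1 | h1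
    · left
      have := conj_iff.2 h1
      rw [this]; group
    · right
      exact conj_iff.2 h1
  · intro c hc hq
    rw [mem_map]
    apply h.act _ (hcz c hc)
    intro q hqQ
    have h1 := hq (g * q * g⁻¹) ⟨q, hqQ, rfl⟩
    have e : g⁻¹ * c * g * q * (g⁻¹ * c * g)⁻¹ * q⁻¹ = g⁻¹ * (c * (g * q * g⁻¹) * c⁻¹ * (g * q * g⁻¹)⁻¹) * g := by group
    rcases h1 with h1 | h1
    · left; rw [e, h1]; group
    · right; rw [e, h1]; group
  · intro h8 c hc
    rw [mem_map]
    apply h.two _ _ (hcz c hc)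
    intro c' hc'
    have h1 := h8 (g * c' * g⁻¹) (by
      calc g * c' * g⁻¹ * (g * z * g⁻¹) = g * (c' * z) * g⁻¹ := by group
        _ = g * z * g⁻¹ * (g * c' * g⁻¹) := by rw [hc']; group)
    rw [conj_pow] at h1
    calc c' ^ 8 = g⁻¹ * (g * c' ^ 8 * g⁻¹) * g := by group
      _ = 1 := by rw [h1]; group

/-- a noncentral involution is conjugate to its product with `z` -/
theorem exists_swap (h : SQ z Q) {a : G} (ha : a ∈ Q) (ha2 : a * a = 1) (ha1 : a ≠ 1) (haz : a ≠ z) :
    ∃ x ∈ Q, x * a * x⁻¹ = a * z := by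
  by_contra hcon
  push Not at hcon
  rcases h.cen a ha (by
    intro y hy
    rcases h.comm y hy a ha with h1 | h1
    · calc y * a = (y * a * y⁻¹ * a⁻¹) * (a * y) := by group
        _ = a * y := by rw [h1, one_mul]
    · exfalso
      apply hcon y hy
      calc y * a * y⁻¹ = (y * a * y⁻¹ * a⁻¹) * a := by group
        _ = z * a := by rw [h1]
        _ = a * z := (h.cz a ha).symm) ha2 with h1 | h1
  · exact ha1 h1
  · exact haz h1

theorem main (h : SQ z Q) {g : G} (hne : g * z * g⁻¹ ≠ z) (hin : g * z * g⁻¹ ∈ Q) :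
    z ∈ Q.map (MulAut.conj g).toMonoidHom := by
  by_contra hz
  set a := g * z * g⁻¹ with ha
  set Q' := Q.map (MulAut.conj g).toMonoidHom with hQ'
  have h' : SQ a Q' := h.conj g
  have haa : a * a = 1 := h'.z2
  have ha1 : a ≠ 1 := h'.z1
  have hainv : a⁻¹ = a := by rw [inv_eq_iff_mul_eq_one]; exact haa
  have hzinv : z⁻¹ = z := by rw [inv_eq_iff_mul_eq_one]; exact h.z2
  have haz : a * z = z * a := h.cz a hin
  obtain ⟨x₀, hx₀, hx₀a⟩ := h.exists_swap hin haa ha1 hne
  have hx₀z : x₀ * z = z * x₀ := h.cz x₀ hx₀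
  -- Step 1
  have step1 : ∀ w ∈ Q', w * z * w⁻¹ ≠ z * a := by
    intro w hw hwz
    apply hz
    have hwa : w * a = a * w := h'.cz w hw
    -- z ∈ (x₀ w) Q (x₀ w)⁻¹
    have h1 : (x₀ * w)⁻¹ * z * (x₀ * w) ∈ Q := by
      have h2 : x₀⁻¹ * z * x₀ = z := by
        calc x₀⁻¹ * z * x₀ = x₀⁻¹ * (z * x₀) := by group
          _ = z := by rw [← hx₀z]; group
      have h3 : w⁻¹ * z * w = a * z := by
        have h4 : w * (a * z) * w⁻¹ = z := by
          calc w * (a * z) * w⁻¹ = (w * a) * z * w⁻¹ := by group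
            _ = a * (w * z * w⁻¹) := by rw [hwa]; group
            _ = a * a * z := by rw [hwz, ← haz]; group
            _ = z := by rw [haa, one_mul]
        calc w⁻¹ * z * w = w⁻¹ * (w * (a * z) * w⁻¹) * w := by rw [h4]
          _ = a * z := by group
      have h4 : (x₀ * w)⁻¹ * z * (x₀ * w) = a * z := by
        calc (x₀ * w)⁻¹ * z * (x₀ * w) = w⁻¹ * (x₀⁻¹ * z * x₀) * w := by group
          _ = a * z := by rw [h2, h3]
      rw [h4]
      exact mul_mem hin h.zQ
    -- (x₀ w) z (x₀ w)⁻¹ = a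
    have h2 : (x₀ * w) * z * (x₀ * w)⁻¹ = a := by
      calc (x₀ * w) * z * (x₀ * w)⁻¹ = x₀ * (w * z * w⁻¹) * x₀⁻¹ := by group
        _ = (x₀ * z) * x₀⁻¹ * (x₀ * a * x₀⁻¹) := by rw [hwz]; group
        _ = z * (a * z) := by rw [hx₀a, hx₀z]; group
        _ = z * z * a := by rw [haz]; group
        _ = a := by rw [h.z2, one_mul]
    have h3 : (g⁻¹ * (x₀ * w)) * z = z * (g⁻¹ * (x₀ * w)) := by
      have h4 : (x₀ * w) * z = a * (x₀ * w) := by
        calc (x₀ * w) * z = (x₀ * w) * z * (x₀ * w)⁻¹ * (x₀ * w) := by group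
          _ = a * (x₀ * w) := by rw [h2]
      calc (g⁻¹ * (x₀ * w)) * z = g⁻¹ * ((x₀ * w) * z) := by group
        _ = z * (g⁻¹ * (x₀ * w)) := by rw [h4, ha]; group
    rw [hQ', mem_map]
    have h4 := h.nrm _ h3 _ h1
    have e : g⁻¹ * (x₀ * w) * ((x₀ * w)⁻¹ * z * (x₀ * w)) * (g⁻¹ * (x₀ * w))⁻¹ = g⁻¹ * z * g := by group
    rwa [e] at h4
  -- Step 2
  have step2 : ∀ w ∈ Q', (w * z * w⁻¹ * z⁻¹ = 1 ∨ w * z * w⁻¹ * z⁻¹ = a) → w * z = z * w := by
    intro w hw hor
    rcases hor with h1 | h1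
    · calc w * z = (w * z * w⁻¹ * z⁻¹) * (z * w) := by group
        _ = z * w := by rw [h1, one_mul]
    · exfalso
      apply step1 w hw
      calc w * z * w⁻¹ = (w * z * w⁻¹ * z⁻¹) * z := by group
        _ = z * a := by rw [h1, haz]
  -- y ∈ Q commuting with a normalizes Q'
  have hnorm' : ∀ y, y * a = a * y → ∀ w ∈ Q', y * w * y⁻¹ ∈ Q' := h'.nrm
  have hzn : ∀ w ∈ Q', z * w * z⁻¹ ∈ Q' := h'.nrm z haz.symm
  -- Step 3 : Q ∩ Q' = {1, a}
  have step3 : ∀ e ∈ Q, e ∈ Q' → e = 1 ∨ e = a := by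
    intro e he he'
    have hea : e * a = a * e := h'.cz e he'
    have he2 : e * e = 1 := by
      rcases h.sqz e he with h1 | h1
      · exact h1
      · exfalso; apply hz; rw [← h1]; exact mul_mem he' he'
    -- e commutes with C_Q(a)
    have hey : ∀ y ∈ Q, y * a = a * y → y * e = e * y := by
      intro y hy hya
      rcases h.comm y hy e he with h1 | h1
      · calc y * e = (y * e * y⁻¹ * e⁻¹) * (e * y) := by group
          _ = e * y := by rw [h1, one_mul]
      · exfalso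
        apply hz
        rw [← h1]
        exact mul_mem (hnorm' y hya e he') (inv_mem he')
    have hcomm_of : ∀ y ∈ Q, ∀ b ∈ Q, y * b * y⁻¹ * b⁻¹ = 1 → y * b = b * y := by
      intro y _ b _ h1
      calc y * b = (y * b * y⁻¹ * b⁻¹) * (b * y) := by group
        _ = b * y := by rw [h1, one_mul]
    have hx₀aa : x₀ * a * x₀⁻¹ * a⁻¹ = z := by
      rw [hx₀a, hainv]
      calc a * z * a = a * (z * a) := by group
        _ = a * a * z := by rw [← haz]; group
        _ = z := by rw [haa, one_mul]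
    -- for y ∈ Q not commuting with a, x₀⁻¹ y commutes with a
    have hcos : ∀ y ∈ Q, y * a * y⁻¹ * a⁻¹ = z → (x₀⁻¹ * y) * a = a * (x₀⁻¹ * y) := by
      intro y _ h1
      have h2 : y * a = a * z * y := by
        calc y * a = (y * a * y⁻¹ * a⁻¹) * a * y := by group
          _ = a * z * y := by rw [h1, haz]
      have h3 : x₀⁻¹ * (a * z) = a * x₀⁻¹ := by rw [← hx₀a]; group
      calc (x₀⁻¹ * y) * a = x₀⁻¹ * (y * a) := by group
        _ = x₀⁻¹ * (a * z) * y := by rw [h2]; group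
        _ = a * (x₀⁻¹ * y) := by rw [h3]; group
    rcases h.comm x₀ hx₀ e he with h1 | h1
    · -- e central
      have hx₀e := hcomm_of x₀ hx₀ e he h1
      have hc : ∀ y ∈ Q, y * e = e * y := by
        intro y hy
        rcases h.comm y hy a hin with h2 | h2
        · exact hey y hy (hcomm_of y hy a hin h2)
        · have h3 := hey _ (mul_mem (inv_mem hx₀) hy) (hcos y hy h2)
          calc y * e = x₀ * ((x₀⁻¹ * y) * e) := by group
            _ = (x₀ * e) * (x₀⁻¹ * y) := by rw [h3]; group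
            _ = e * y := by rw [hx₀e]; group
      rcases h.cen e he hc he2 with h2 | h2
      · exact Or.inl h2
      · exfalso; apply hz; rw [← h2]; exact he'
    · -- e a central
      have hea2 : (e * a) * (e * a) = 1 := by
        calc (e * a) * (e * a) = e * (a * e) * a := by group
          _ = (e * e) * (a * a) := by rw [← hea]; group
          _ = 1 := by rw [he2, haa, one_mul]
      have hx₀ea : x₀ * (e * a) = (e * a) * x₀ := by
        have h2 : x₀ * e * x₀⁻¹ = z * e := by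
          calc x₀ * e * x₀⁻¹ = (x₀ * e * x₀⁻¹ * e⁻¹) * e := by group
            _ = z * e := by rw [h1]
        calc x₀ * (e * a) = (x₀ * e * x₀⁻¹) * (x₀ * a * x₀⁻¹) * x₀ := by group
          _ = z * (e * a) * z * x₀ := by rw [h2, hx₀a]; group
          _ = (e * a) * z * z * x₀ := by rw [← h.cz (e * a) (mul_mem he hin)]
          _ = (e * a) * (z * z) * x₀ := by group
          _ = (e * a) * x₀ := by rw [h.z2]; group
      have hc : ∀ y ∈ Q, y * (e * a) = (e * a) * y := by
        intro y hy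
        have hYc : ∀ y ∈ Q, y * a = a * y → y * (e * a) = (e * a) * y := by
          intro y hy hya
          calc y * (e * a) = (y * e) * a := by group
            _ = e * (y * a) := by rw [hey y hy hya]; group
            _ = (e * a) * y := by rw [hya]; group
        rcases h.comm y hy a hin with h2 | h2
        · exact hYc y hy (hcomm_of y hy a hin h2)
        · have h3 := hYc _ (mul_mem (inv_mem hx₀) hy) (hcos y hy h2)
          calc y * (e * a) = x₀ * ((x₀⁻¹ * y) * (e * a)) := by group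
            _ = (x₀ * (e * a)) * (x₀⁻¹ * y) := by rw [h3]; group
            _ = (e * a) * y := by rw [hx₀ea]; group
      rcases h.cen (e * a) (mul_mem he hin) hc hea2 with h2 | h2
      · right
        calc e = e * a * a⁻¹ := by group
          _ = a := by rw [h2, hainv, one_mul]
      · exfalso; apply hz; rw [← h2]; exact mul_mem he' h'.zQ
  -- Step 4
  have step4 : ∀ w ∈ Q', w * z = z * w → ∀ y ∈ Q, y * a = a * y →
      (y * w * y⁻¹ * w⁻¹ = 1 ∨ y * w * y⁻¹ * w⁻¹ = a) := by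
    intro w hw hwz y hy hya
    apply step3
    · have h1 : w * y⁻¹ * w⁻¹ ∈ Q := h.nrm w hwz _ (inv_mem hy)
      have : y * w * y⁻¹ * w⁻¹ = y * (w * y⁻¹ * w⁻¹) := by group
      rw [this]; exact mul_mem hy h1
    · exact mul_mem (hnorm' y hya w hw) (inv_mem hw)
  -- Step 5a
  have step5a : ∀ w ∈ Q', (z * w * z⁻¹ * w⁻¹) * z = z * (z * w * z⁻¹ * w⁻¹) := by
    intro w hw
    have hc : z * w * z⁻¹ * w⁻¹ ∈ Q' := mul_mem (hzn w hw) (inv_mem hw)
    set c := z * w * z⁻¹ * w⁻¹ with hcd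
    apply step2 c hc
    have h1 : c * z * c⁻¹ * z⁻¹ = c * c := by
      have h2 : z * c⁻¹ * z⁻¹ = c := by
        rw [hcd]
        calc z * (z * w * z⁻¹ * w⁻¹)⁻¹ * z⁻¹ = z * w * z * w⁻¹ * (z⁻¹ * z⁻¹) := by group
          _ = z * w * z * w⁻¹ := by rw [hzinv, h.z2, mul_one]
          _ = z * w * z⁻¹ * w⁻¹ := by rw [hzinv]
      calc c * z * c⁻¹ * z⁻¹ = c * (z * c⁻¹ * z⁻¹) := by group
        _ = c * c := by rw [h2]
    rw [h1]
    exact h'.sqz c hc
  -- Step 5b
  have step5b : ∀ w ∈ Q', ∀ y ∈ Q, y * a = a * y → (y * w * y⁻¹ * w⁻¹) * z = z * (y * w * y⁻¹ * w⁻¹) := by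
    intro w hw y hy hya
    have hc : z * w * z⁻¹ * w⁻¹ ∈ Q' := mul_mem (hzn w hw) (inv_mem hw)
    have hb : y * w * y⁻¹ * w⁻¹ ∈ Q' := mul_mem (hnorm' y hya w hw) (inv_mem hw)
    have hyz : y * z = z * y := h.cz y hy
    set c := z * w * z⁻¹ * w⁻¹ with hcd
    set b := y * w * y⁻¹ * w⁻¹ with hbd
    have hcz : c * z = z * c := step5a w hw
    -- y c y⁻¹ = [z, b] b c b⁻¹
    have e1 : y * c * y⁻¹ = (z * b * z⁻¹ * b⁻¹) * (b * c * b⁻¹) := by
      have h1 : y * c * y⁻¹ = z * (y * w * y⁻¹) * z⁻¹ * (y * w * y⁻¹)⁻¹ := by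
        rw [hcd]
        have hyz' : y * z * y⁻¹ = z := by rw [hyz]; group
        calc y * (z * w * z⁻¹ * w⁻¹) * y⁻¹ = (y * z * y⁻¹) * (y * w * y⁻¹) * (y * z * y⁻¹)⁻¹ * (y * w * y⁻¹)⁻¹ := by group
          _ = z * (y * w * y⁻¹) * z⁻¹ * (y * w * y⁻¹)⁻¹ := by rw [hyz']
      have h2 : y * w * y⁻¹ = b * w := by rw [hbd]; group
      rw [h1, h2, hcd]; group
    -- relations modulo a
    have r1 := step4 c hc hcz y hy hya
    have r2 := h'.comm b hb c hc
    -- a central in Q'
    have ac : ∀ q ∈ Q', q * a = a * q := h'.cz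
    have hzb : z * b * z⁻¹ * b⁻¹ = (y * c * y⁻¹ * c⁻¹) * (b * c * b⁻¹ * c⁻¹)⁻¹ := by
      calc z * b * z⁻¹ * b⁻¹ = ((z * b * z⁻¹ * b⁻¹) * (b * c * b⁻¹)) * (b * c * b⁻¹)⁻¹ := by group
        _ = (y * c * y⁻¹) * (b * c * b⁻¹)⁻¹ := by rw [← e1]
        _ = (y * c * y⁻¹ * c⁻¹) * (b * c * b⁻¹ * c⁻¹)⁻¹ := by group
    have hzb' : z * b * z⁻¹ * b⁻¹ = 1 ∨ z * b * z⁻¹ * b⁻¹ = a := by
      rw [hzb]
      rcases r1 with h1 | h1 <;> rcases r2 with h2 | h2 <;> rw [h1, h2]
      · left; group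
      · right; rw [hainv, one_mul]
      · right; group
      · left; group
    have h3 : b * z = z * b := by
      apply step2 b hb
      have h4 : b * z * b⁻¹ * z⁻¹ = (z * b * z⁻¹ * b⁻¹)⁻¹ := by group
      rw [h4]
      rcases hzb' with h5 | h5
      · left; rw [h5, inv_one]
      · right; rw [h5, hainv]
    exact h3
  -- Step 6 : elements of C_Q(a) have square one
  have step6 : ∀ y ∈ Q, y * a = a * y → y * y = 1 := by
    intro y hy hya
    rcases h.sqz y hy with h1 | h1
    · exact h1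
    exfalso
    apply hz
    rw [← h1]
    apply h'.act
    · calc y * y * a = y * (y * a) := by group
        _ = y * (a * y) := by rw [hya]
        _ = (y * a) * y := by group
        _ = (a * y) * y := by rw [hya]
        _ = a * (y * y) := by group
    · intro w hw
      have hb : y * w * y⁻¹ * w⁻¹ ∈ Q' := mul_mem (hnorm' y hya w hw) (inv_mem hw)
      have hbz := step5b w hw y hy hya
      have h2 := step4 _ hb hbz y hy hya
      set b := y * w * y⁻¹ * w⁻¹ with hbd
      have e : y * y * w * (y * y)⁻¹ * w⁻¹ = (y * b * y⁻¹ * b⁻¹) * (b * b) := by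
        rw [hbd]; group
      rw [e]
      rcases h2 with h3 | h3 <;> rcases h'.sqz b hb with h4 | h4 <;> rw [h3, h4]
      · left; rw [one_mul]
      · right; rw [one_mul]
      · right; rw [mul_one]
      · left; exact haa
  -- Step 7 : C_Q(a) = {1, z, a, az}
  have hcommY : ∀ y ∈ Q, y * a = a * y → ∀ y' ∈ Q, y' * a = a * y' → y * y' = y' * y := by
    intro y hy hya y' hy' hya'
    have h1 := step6 y hy hya
    have h2 := step6 y' hy' hya'
    have h3 := step6 (y * y') (mul_mem hy hy') (by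
      calc y * y' * a = y * (y' * a) := by group
        _ = (y * a) * y' := by rw [hya']; group
        _ = a * (y * y') := by rw [hya]; group)
    have i1 : y⁻¹ = y := by rw [inv_eq_iff_mul_eq_one]; exact h1
    have i2 : y'⁻¹ = y' := by rw [inv_eq_iff_mul_eq_one]; exact h2
    have i3 : (y * y')⁻¹ = y * y' := by rw [inv_eq_iff_mul_eq_one]; exact h3
    rw [mul_inv_rev, i1, i2] at i3
    exact i3.symm
  have hcomm_of : ∀ y b : G, y * b * y⁻¹ * b⁻¹ = 1 → y * b = b * y := by
    intro y b h1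
    calc y * b = (y * b * y⁻¹ * b⁻¹) * (b * y) := by group
      _ = b * y := by rw [h1, one_mul]
  have hcos : ∀ y ∈ Q, y * a * y⁻¹ * a⁻¹ = z → (x₀⁻¹ * y) * a = a * (x₀⁻¹ * y) := by
    intro y _ h1
    have h2 : y * a = a * z * y := by
      calc y * a = (y * a * y⁻¹ * a⁻¹) * a * y := by group
        _ = a * z * y := by rw [h1, haz]
    have h3 : x₀⁻¹ * (a * z) = a * x₀⁻¹ := by rw [← hx₀a]; group
    calc (x₀⁻¹ * y) * a = x₀⁻¹ * (y * a) := by group
      _ = x₀⁻¹ * (a * z) * y := by rw [h2]; group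
      _ = a * (x₀⁻¹ * y) := by rw [h3]; group
  -- central elements among C_Q(a)
  have hY0 : ∀ y ∈ Q, y * a = a * y → x₀ * y = y * x₀ → y = 1 ∨ y = z := by
    intro y hy hya hyx
    apply h.cen y hy _ (step6 y hy hya)
    intro q hq
    rcases h.comm q hq a hin with h2 | h2
    · exact (hcommY y hy hya q hq (hcomm_of q a h2)).symm
    · have h3 := hcommY y hy hya _ (mul_mem (inv_mem hx₀) hq) (hcos q hq h2)
      calc q * y = x₀ * ((x₀⁻¹ * q) * y) := by group
        _ = (x₀ * y) * (x₀⁻¹ * q) := by rw [← h3]; group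
        _ = y * q := by rw [hyx]; group
  have hY : ∀ y ∈ Q, y * a = a * y → y = 1 ∨ y = z ∨ y = a ∨ y = a * z := by
    intro y hy hya
    rcases h.comm x₀ hx₀ y hy with h1 | h1
    · rcases hY0 y hy hya (hcomm_of _ _ h1) with h2 | h2
      · exact Or.inl h2
      · exact Or.inr (Or.inl h2)
    · have h2 : x₀ * y * x₀⁻¹ = z * y := by
        calc x₀ * y * x₀⁻¹ = (x₀ * y * x₀⁻¹ * y⁻¹) * y := by group
          _ = z * y := by rw [h1]
      have h3 : x₀ * (y * a) = (y * a) * x₀ := by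
        calc x₀ * (y * a) = (x₀ * y * x₀⁻¹) * (x₀ * a * x₀⁻¹) * x₀ := by group
          _ = z * (y * a) * z * x₀ := by rw [h2, hx₀a]; group
          _ = (y * a) * z * z * x₀ := by rw [← h.cz (y * a) (mul_mem hy hin)]
          _ = (y * a) * (z * z) * x₀ := by group
          _ = (y * a) * x₀ := by rw [h.z2]; group
      have h4 : y * a * a = a * (y * a) := by
        calc y * a * a = (a * y) * a := by rw [hya]
          _ = a * (y * a) := by group
      have h5 : y = (y * a) * a := by rw [mul_assoc, haa, mul_one]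
      rcases hY0 (y * a) (mul_mem hy hin) h4 h3 with h6 | h6
      · right; right; left
        rw [h5, h6, one_mul]
      · right; right; right
        rw [h5, h6, haz]
  -- r ∈ Q of order 4
  have hx₀2 := h.sqz x₀ hx₀
  have hax₀ : a * x₀ = z * (x₀ * a) := by
    have h1 : x₀ * a = a * z * x₀ := by rw [← hx₀a]; group
    calc a * x₀ = a * (z * z) * x₀ := by rw [h.z2]; group
      _ = (a * z) * z * x₀ := by group
      _ = z * (a * z) * x₀ := by rw [h.cz (a * z) (mul_mem hin h.zQ)]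
      _ = z * (x₀ * a) := by rw [h1]; group
  obtain ⟨r, hr, hr2, hra⟩ : ∃ r ∈ Q, r * r = z ∧ r * a * r⁻¹ = a * z := by
    rcases hx₀2 with h1 | h1
    · refine ⟨x₀ * a, mul_mem hx₀ hin, ?_, ?_⟩
      · calc x₀ * a * (x₀ * a) = x₀ * (a * x₀) * a := by group
          _ = (x₀ * z) * x₀ * (a * a) := by rw [hax₀]; group
          _ = z * (x₀ * x₀) * (a * a) := by rw [hx₀z]; group
          _ = z := by rw [h1, haa]; group
      · calc x₀ * a * a * (x₀ * a)⁻¹ = x₀ * (a * a) * a⁻¹ * x₀⁻¹ := by group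
          _ = x₀ * a * x₀⁻¹ := by rw [haa, hainv]; group
          _ = a * z := hx₀a
    · exact ⟨x₀, hx₀, h1, hx₀a⟩
  have hrz : r * z = z * r := h.cz r hr
  have har : a * r = z * (r * a) := by
    have h1 : r * a = a * z * r := by rw [← hra]; group
    calc a * r = a * (z * z) * r := by rw [h.z2]; group
      _ = (a * z) * z * r := by group
      _ = z * (a * z) * r := by rw [h.cz (a * z) (mul_mem hin h.zQ)]
      _ = z * (r * a) := by rw [h1]; group
  -- every element of Q is r^i a^j z^k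
  have hcosr : ∀ y ∈ Q, y * a * y⁻¹ * a⁻¹ = z → (r⁻¹ * y) * a = a * (r⁻¹ * y) := by
    intro y _ h1
    have h2 : y * a = a * z * y := by
      calc y * a = (y * a * y⁻¹ * a⁻¹) * a * y := by group
        _ = a * z * y := by rw [h1, haz]
    have h3 : r⁻¹ * (a * z) = a * r⁻¹ := by rw [← hra]; group
    calc (r⁻¹ * y) * a = r⁻¹ * (y * a) := by group
      _ = r⁻¹ * (a * z) * y := by rw [h2]; group
      _ = a * (r⁻¹ * y) := by rw [h3]; group
  have hQ : ∀ q ∈ Q, ∃ s : G, (s = 1 ∨ s = z) ∧ (q = s ∨ q = a * s ∨ q = r * s ∨ q = r * a * s) := by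
    intro q hq
    rcases h.comm q hq a hin with h2 | h2
    · rcases hY q hq (hcomm_of q a h2) with h3 | h3 | h3 | h3
      · exact ⟨1, Or.inl rfl, Or.inl h3⟩
      · exact ⟨z, Or.inr rfl, Or.inl h3⟩
      · exact ⟨1, Or.inl rfl, Or.inr (Or.inl (by rw [h3, mul_one]))⟩
      · exact ⟨z, Or.inr rfl, Or.inr (Or.inl h3)⟩
    · have h3 := hY _ (mul_mem (inv_mem hr) hq) (hcosr q hq h2)
      have h4 : q = r * (r⁻¹ * q) := by group
      rcases h3 with h5 | h5 | h5 | h5
      · exact ⟨1, Or.inl rfl, Or.inr (Or.inr (Or.inl (by rw [h4, h5])))⟩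
      · exact ⟨z, Or.inr rfl, Or.inr (Or.inr (Or.inl (by rw [h4, h5])))⟩
      · exact ⟨1, Or.inl rfl, Or.inr (Or.inr (Or.inr (by rw [h4, h5, mul_one])))⟩
      · exact ⟨z, Or.inr rfl, Or.inr (Or.inr (Or.inr (by rw [h4, h5]; group)))⟩
  -- elements with square z
  have hz1' : ∀ s : G, (s = 1 ∨ s = z) → s * s = 1 := by
    rintro s (rfl | rfl)
    · simp
    · exact h.z2
  have hsc : ∀ s : G, (s = 1 ∨ s = z) → ∀ q ∈ Q, q * s = s * q := by
    rintro s (rfl | rfl) q hq
    · simp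
    · exact h.cz q hq
  have hsq : ∀ q ∈ Q, ∀ s : G, (s = 1 ∨ s = z) → (q * s) * (q * s) = q * q := by
    intro q hq s hs
    calc (q * s) * (q * s) = q * (s * q) * s := by group
      _ = q * q * (s * s) := by rw [← hsc s hs q hq]; group
      _ = q * q := by rw [hz1' s hs, mul_one]
  have hra2 : r * a * (r * a) = 1 := by
    calc r * a * (r * a) = r * (a * r) * a := by group
      _ = (r * z) * r * (a * a) := by rw [har]; group
      _ = z * (r * r) * (a * a) := by rw [hrz]; group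
      _ = 1 := by rw [hr2, haa, mul_one, h.z2]
  have hord4 : ∀ q ∈ Q, q * q = z → ∃ s : G, (s = 1 ∨ s = z) ∧ q = r * s := by
    intro q hq hq2
    obtain ⟨s, hs, h1 | h1 | h1 | h1⟩ := hQ q hq
    · exfalso; apply h.z1; rw [← hq2, h1]; exact hz1' s hs
    · exfalso; apply h.z1; rw [← hq2, h1, hsq a hin s hs, haa]
    · exact ⟨s, hs, h1⟩
    · exfalso; apply h.z1; rw [← hq2, h1, hsq _ (mul_mem hr hin) s hs, hra2]
  -- C(z) has exponent dividing 8
  have hexp : ∀ c, c * z = z * c → c ^ 8 = 1 := by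
    intro c hc
    have hczc : c * z * c⁻¹ = z := by rw [hc]; group
    have hcs : ∀ s : G, (s = 1 ∨ s = z) → c * s * c⁻¹ = s := by
      rintro s (rfl | rfl)
      · group
      · exact hczc
    -- c r c⁻¹ = r s₁
    obtain ⟨s₁, hs₁, hcr⟩ := hord4 (c * r * c⁻¹) (h.nrm c hc r hr) (by
      calc c * r * c⁻¹ * (c * r * c⁻¹) = c * (r * r) * c⁻¹ := by group
        _ = z := by rw [hr2, hczc])
    -- c² fixes r and a modulo z
    have hc2 : c ^ 2 ∈ Q := by
      apply h.act
      · rw [sq]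
        calc c * c * z = c * (c * z) := by group
          _ = c * (z * c) := by rw [hc]
          _ = (c * z) * c := by group
          _ = (z * c) * c := by rw [hc]
          _ = z * (c * c) := by group
      · have key_r : c ^ 2 * r * (c ^ 2)⁻¹ = r := by
          calc c ^ 2 * r * (c ^ 2)⁻¹ = c * (c * r * c⁻¹) * c⁻¹ := by rw [sq]; group
            _ = c * (r * s₁) * c⁻¹ := by rw [hcr]
            _ = (c * r * c⁻¹) * (c * s₁ * c⁻¹) := by group
            _ = r * (s₁ * s₁) := by rw [hcr, hcs s₁ hs₁]; group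
            _ = r := by rw [hz1' s₁ hs₁, mul_one]
        have key_a : ∃ s : G, (s = 1 ∨ s = z) ∧ c ^ 2 * a * (c ^ 2)⁻¹ = a * s := by
          have hca2 : c * a * c⁻¹ * (c * a * c⁻¹) = 1 := by
            calc c * a * c⁻¹ * (c * a * c⁻¹) = c * (a * a) * c⁻¹ := by group
              _ = 1 := by rw [haa]; group
          have e0 : c ^ 2 * a * (c ^ 2)⁻¹ = c * (c * a * c⁻¹) * c⁻¹ := by rw [sq]; group
          obtain ⟨s, hs, h1 | h1 | h1 | h1⟩ := hQ _ (h.nrm c hc a hin)
          · exfalso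
            -- c a c⁻¹ = s central
            have h2 : a = s := by
              have h3 : c⁻¹ * s * c = s := by
                conv_lhs => rw [← hcs s hs]
                group
              calc a = c⁻¹ * (c * a * c⁻¹) * c := by group
                _ = s := by rw [h1, h3]
            rcases hs with h3 | h3
            · exact ha1 (h2.trans h3)
            · exact hne (h2.trans h3)
          · refine ⟨1, Or.inl rfl, ?_⟩
            rw [e0, h1]
            calc c * (a * s) * c⁻¹ = (c * a * c⁻¹) * (c * s * c⁻¹) := by group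
              _ = a * (s * s) := by rw [h1, hcs s hs]; group
              _ = a * 1 := by rw [hz1' s hs]
          · exfalso
            apply h.z1
            rw [← hca2, h1, hsq r hr s hs, hr2]
          · refine ⟨s₁ * z, ?_, ?_⟩
            · rcases hs₁ with rfl | rfl
              · right; rw [one_mul]
              · left; exact h.z2
            · rw [e0, h1]
              have hs₁r : s₁ * r = r * s₁ := (hsc s₁ hs₁ r hr).symm
              calc c * (r * a * s) * c⁻¹ = (c * r * c⁻¹) * (c * a * c⁻¹) * (c * s * c⁻¹) := by group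
                _ = r * s₁ * (r * a * s) * s := by rw [hcr, h1, hcs s hs]
                _ = r * (s₁ * r) * a * (s * s) := by group
                _ = (r * r) * s₁ * a := by rw [hs₁r, hz1' s hs]; group
                _ = z * (s₁ * a) := by rw [hr2]; group
                _ = z * (a * s₁) := by rw [← hsc s₁ hs₁ a hin]
                _ = (a * s₁) * z := by
                    rw [h.cz (a * s₁) (by
                      apply mul_mem hin
                      rcases hs₁ with rfl | rfl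
                      · exact one_mem _
                      · exact h.zQ)]
                _ = a * (s₁ * z) := by group
        obtain ⟨s₂, hs₂, hca⟩ := key_a
        have hc2s : ∀ s : G, (s = 1 ∨ s = z) → c ^ 2 * s * (c ^ 2)⁻¹ = s := by
          intro s hs
          calc c ^ 2 * s * (c ^ 2)⁻¹ = c * (c * s * c⁻¹) * c⁻¹ := by rw [sq]; group
            _ = s := by rw [hcs s hs, hcs s hs]
        intro q hq
        obtain ⟨s, hs, h1 | h1 | h1 | h1⟩ := hQ q hq
        · left; rw [h1, hc2s s hs]; group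
        · have : c ^ 2 * q * (c ^ 2)⁻¹ * q⁻¹ = s₂ := by
            rw [h1]
            calc c ^ 2 * (a * s) * (c ^ 2)⁻¹ * (a * s)⁻¹ = (c ^ 2 * a * (c ^ 2)⁻¹) * (c ^ 2 * s * (c ^ 2)⁻¹) * s⁻¹ * a⁻¹ := by group
              _ = a * s₂ * a⁻¹ := by rw [hca, hc2s s hs]; group
              _ = s₂ := by rw [hsc s₂ hs₂ a hin]; group
          rw [this]; exact hs₂
        · left
          rw [h1]
          calc c ^ 2 * (r * s) * (c ^ 2)⁻¹ * (r * s)⁻¹ = (c ^ 2 * r * (c ^ 2)⁻¹) * (c ^ 2 * s * (c ^ 2)⁻¹) * s⁻¹ * r⁻¹ := by group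
            _ = 1 := by rw [key_r, hc2s s hs]; group
        · have : c ^ 2 * q * (c ^ 2)⁻¹ * q⁻¹ = s₂ := by
            rw [h1]
            calc c ^ 2 * (r * a * s) * (c ^ 2)⁻¹ * (r * a * s)⁻¹ = (c ^ 2 * r * (c ^ 2)⁻¹) * (c ^ 2 * a * (c ^ 2)⁻¹) * (c ^ 2 * s * (c ^ 2)⁻¹) * s⁻¹ * a⁻¹ * r⁻¹ := by group
              _ = r * (a * s₂) * a⁻¹ * r⁻¹ := by rw [key_r, hca, hc2s s hs]; group
              _ = r * s₂ * r⁻¹ := by rw [hsc s₂ hs₂ a hin]; group
              _ = s₂ := by rw [hsc s₂ hs₂ r hr]; group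
          rw [this]; exact hs₂
    have h4 : c ^ 4 = 1 ∨ c ^ 4 = z := by
      have : c ^ 4 = c ^ 2 * c ^ 2 := by rw [← pow_add]
      rw [this]; exact h.sqz _ hc2
    have h8 : c ^ 8 = c ^ 4 * c ^ 4 := by rw [← pow_add]
    rw [h8]
    exact hz1' _ h4
  -- so C(z) = Q, C(a) = Q'
  have hexp' : ∀ c, c * a = a * c → c ^ 8 = 1 := by
    intro c hc
    have h1 := hexp (g⁻¹ * c * g) (by
      calc g⁻¹ * c * g * z = g⁻¹ * (c * (g * z * g⁻¹)) * g := by group
        _ = g⁻¹ * ((g * z * g⁻¹) * c) * g := by rw [← ha, hc]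
        _ = z * (g⁻¹ * c * g) := by group)
    have h2 : (g⁻¹ * c * g) ^ 8 = g⁻¹ * c ^ 8 * g := by
      have := conj_pow (i := 8) (a := g⁻¹) (b := c)
      rwa [inv_inv] at this
    rw [h2] at h1
    calc c ^ 8 = g * (g⁻¹ * c ^ 8 * g) * g⁻¹ := by group
      _ = 1 := by rw [h1]; group
  exact hz (h'.two hexp' z haz.symm)

end SQ

end Cfsg.Agent.H64.SyI
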