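import Mathlib
import Cfsg.Agent.Solv.Frattini

set_option autoImplicit false

namespace Cfsg.Agent.H64.TIFam

variable {S : Type*} [Group S]

/-- conjugate subgroup -/
abbrev cj (s : S) (R : Subgroup S) : Subgroup S := R.map (MulAut.conj s).toMonoidHom

theorem mem_cj {s x : S} {R : Subgroup S} : x ∈ cj s R ↔ s⁻¹ * x * s ∈ R := by
  constructor
  · rintro ⟨y, hy, rfl⟩
    have : s⁻¹ * (MulAut.conj s).toMonoidHom y * s = y := by
      change s⁻¹ * (s * y * s⁻¹) * s = y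
      group
    rw [this]; exact hy
  · intro h
    exact ⟨_, h, by change s * (s⁻¹ * x * s) * s⁻¹ = x; group⟩

theorem conj_mem_cj {s x : S} {R : Subgroup S} (hx : x ∈ R) : s * x * s⁻¹ ∈ cj s R :=
  ⟨x, hx, rfl⟩

theorem cj_eq_iff [Finite S] {s : S} {R : Subgroup S} : cj s R = R ↔ s ∈ Subgroup.normalizer (R : Set S) := by
  constructor
  · intro h
    rw [Subgroup.mem_normalizer_iff]
    intro x
    constructor
    · intro hx
      have := conj_mem_cj (s := s) hx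
      rwa [h] at this
    · intro hx
      have h1 : s * x * s⁻¹ ∈ cj s R := by rw [h]; exact hx
      rw [mem_cj] at h1
      have : s⁻¹ * (s * x * s⁻¹) * s = x := by group
      rwa [this] at h1
  · intro h
    ext x
    rw [mem_cj]
    rw [Subgroup.mem_normalizer_iff] at h
    rw [h]
    have : s * (s⁻¹ * x * s) * s⁻¹ = x := by group
    rw [this]

theorem conj_mem_of_normalizer {s x : S} {R : Subgroup S} (hs : s ∈ Subgroup.normalizer (R : Set S))
    (hx : x ∈ R) : s * x * s⁻¹ ∈ R := (Subgroup.mem_normalizer_iff.1 hs x).1 hx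

theorem inv_conj_mem_of_normalizer {s x : S} {R : Subgroup S} (hs : s ∈ Subgroup.normalizer (R : Set S))
    (hx : x ∈ R) : s⁻¹ * x * s ∈ R := by
  have := conj_mem_of_normalizer (inv_mem hs) hx
  rwa [inv_inv] at this

/-- a proper subgroup of a subgroup of a 2-group lies in a proper normal one -/
theorem exists_normal_over [Finite S] {R H : Subgroup S} (hH : IsPGroup 2 H) (h : R < H) :
    ∃ M : Subgroup S, R ≤ M ∧ M < H ∧ H ≤ Subgroup.normalizer (M : Set S) := by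
  haveI : Fact (Nat.Prime 2) := ⟨Nat.prime_two⟩
  haveI : Group.IsNilpotent H := hH.isNilpotent
  have hne : R.subgroupOf H ≠ ⊤ := by
    intro h1
    exact h.not_ge (Subgroup.subgroupOf_eq_top.1 h1)
  obtain h1 | ⟨K, hK, hRK⟩ := eq_top_or_exists_le_coatom (R.subgroupOf H)
  · exact absurd h1 hne
  have hKn : K.Normal :=
    Subgroup.NormalizerCondition.normal_of_coatom K (Group.normalizerCondition_of_isNilpotent) hK
  refine ⟨K.map H.subtype, ?_, ?_, ?_⟩
  · intro x hx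
    exact ⟨⟨x, h.le hx⟩, hRK hx, rfl⟩
  · refine lt_of_le_of_ne (Subgroup.map_subtype_le K) ?_
    intro h2
    apply hK.1
    rw [eq_top_iff]
    intro x _
    have h3 : (x : S) ∈ K.map H.subtype := by rw [h2]; exact x.2
    obtain ⟨y, hy, hyx⟩ := h3
    have : y = x := Subtype.ext hyx
    rwa [← this]
  · intro x hx
    rw [Subgroup.mem_normalizer_iff]
    intro y
    constructor
    · rintro ⟨k, hk, rfl⟩
      exact ⟨⟨x, hx⟩ * k * ⟨x, hx⟩⁻¹, hKn.conj_mem k hk _, rfl⟩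
    · rintro ⟨k, hk, hk2⟩
      refine ⟨⟨x, hx⟩⁻¹ * k * ⟨x, hx⟩, ?_, ?_⟩
      · have := hKn.conj_mem k hk (⟨x, hx⟩⁻¹)
        rwa [inv_inv] at this
      · have hk3 : (k : S) = x * y * x⁻¹ := hk2
        change x⁻¹ * (k : S) * x = y
        rw [hk3]; group

/-- some power of `t` lies outside `N` with square in `N` -/
theorem exists_sq_mem [Finite S] {T N : Subgroup S} (hS : IsPGroup 2 T) {t : S} (ht : t ∈ T) (htN : t ∉ N) :
    ∃ u ∈ T, u ∉ N ∧ u ^ 2 ∈ N := by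
  classical
  have hex : ∃ k : ℕ, t ^ 2 ^ k ∈ N := by
    obtain ⟨k, hk⟩ := hS ⟨t, ht⟩
    have hk' : t ^ 2 ^ k = 1 := congrArg Subtype.val hk
    exact ⟨k, by rw [hk']; exact one_mem _⟩
  have hspec := Nat.find_spec hex
  have hmin := fun m => Nat.find_min hex (m := m)
  set k := Nat.find hex with hk
  have hk0 : k ≠ 0 := by
    intro h0
    rw [h0, pow_zero, pow_one] at hspec
    exact htN hspec
  obtain ⟨m, hm⟩ := Nat.exists_eq_succ_of_ne_zero hk0
  refine ⟨t ^ 2 ^ m, pow_mem ht _, hmin m (by omega), ?_⟩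
  rw [← pow_mul, ← pow_succ]
  rw [hm] at hspec
  exact hspec

theorem exists_order_four [Finite S] {T : Subgroup S} (hS : IsPGroup 2 T) {t : S} (ht : t ∈ T) (ht2 : t ^ 2 ≠ 1) :
    ∃ u ∈ T, u ^ 2 ≠ 1 ∧ u ^ 4 = 1 := by
  classical
  have hex : ∃ k : ℕ, t ^ 2 ^ (k + 1) = 1 := by
    obtain ⟨k, hk⟩ := hS ⟨t, ht⟩
    have hk' : t ^ 2 ^ k = 1 := congrArg Subtype.val hk
    exact ⟨k, by rw [pow_succ, pow_mul, hk', one_pow]⟩
  have hspec := Nat.find_spec hex
  have hmin := fun m => Nat.find_min hex (m := m)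
  set k := Nat.find hex with hk
  have hk0 : k ≠ 0 := by
    intro h0
    rw [h0, zero_add, pow_one] at hspec
    exact ht2 hspec
  obtain ⟨m, hm⟩ := Nat.exists_eq_succ_of_ne_zero hk0
  refine ⟨t ^ 2 ^ m, pow_mem ht _, ?_, ?_⟩
  · rw [← pow_mul, ← pow_succ]; exact hmin m (by omega)
  · rw [← pow_mul]
    rw [hm] at hspec
    have : 2 ^ m * 4 = 2 ^ (m.succ + 1) := by rw [Nat.succ_eq_add_one]; ring
    rw [this]; exact hspec

/-- Case A: elements of `R` not normalizing `T` are involutions. -/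
theorem sq_eq_one_of [Finite S] {R T : Subgroup S} (hT2 : IsPGroup 2 T)
    (hRc : ∀ t ∈ T, t ∉ Subgroup.normalizer (R : Set S) → (∀ r ∈ R, ∀ r' ∈ R, r * (t * r' * t⁻¹) = (t * r' * t⁻¹) * r))
    (hRi : ∀ t ∈ T, t ∉ Subgroup.normalizer (R : Set S) → ∀ x, x ∈ R → x ∈ cj t R → x = 1)
    (hTc : ∀ r ∈ R, r ∉ Subgroup.normalizer (T : Set S) → (∀ t ∈ T, ∀ t' ∈ T, t * (r * t' * r⁻¹) = (r * t' * r⁻¹) * t))
    {t₁ : S} (ht₁ : t₁ ∈ T) (ht₁N : t₁ ∉ Subgroup.normalizer (R : Set S))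
    {r : S} (hr : r ∈ R) (hrN : r ∉ Subgroup.normalizer (T : Set S)) : r ^ 2 = 1 := by
  obtain ⟨t, ht, htN, ht2⟩ := exists_sq_mem hT2 ht₁ ht₁N
  have h1 : t * (r * t * r⁻¹) = (r * t * r⁻¹) * t := hTc r hr hrN t ht t ht
  set b := t * r * t⁻¹ with hb
  set c := t * b * t⁻¹ with hc
  have hcR : c ∈ R := by
    have : c = t ^ 2 * r * (t ^ 2)⁻¹ := by rw [hc, hb]; simp only [sq, mul_inv_rev, mul_assoc]
    rw [this]
    exact conj_mem_of_normalizer ht2 hr
  -- t commutes with r b⁻¹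
  have h2 : t * (r * b⁻¹) * t⁻¹ = r * b⁻¹ := by
    have e : r * b⁻¹ = r * t * r⁻¹ * t⁻¹ := by rw [hb]; group
    rw [e]
    calc t * (r * t * r⁻¹ * t⁻¹) * t⁻¹ = (t * (r * t * r⁻¹)) * t⁻¹ * t⁻¹ := by group
      _ = ((r * t * r⁻¹) * t) * t⁻¹ * t⁻¹ := by rw [h1]
      _ = r * t * r⁻¹ * t⁻¹ := by group
  have h3 : b * c⁻¹ = r * b⁻¹ := by
    rw [← h2, hc, hb]; group
  have h4 : c * b = b * c := hRc t ht htN c hcR r hr
  have h5 : b * b = r * c := by
    calc b * b = b * c⁻¹ * (c * b) := by group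
      _ = r * b⁻¹ * (b * c) := by rw [h3, h4]
      _ = r * c := by group
  have h6 : b * b = 1 := by
    apply hRi t ht htN
    · rw [h5]; exact mul_mem hr hcR
    · exact mul_mem (conj_mem_cj hr) (conj_mem_cj hr)
  calc r ^ 2 = t⁻¹ * (b * b) * t := by rw [hb, sq]; group
    _ = 1 := by rw [h6]; group

/-- the core: two TI subgroups of the same order, whose conjugates commute, commute -/
theorem core [Finite S] {R T : Subgroup S} (hR2 : IsPGroup 2 R) (hTp : IsPGroup 2 T) (hcard : Nat.card R = Nat.card T)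
    (hRT : R ⊓ T = ⊥)
    (hRc : ∀ t ∈ T, t ∉ Subgroup.normalizer (R : Set S) → (∀ r ∈ R, ∀ r' ∈ R, r * (t * r' * t⁻¹) = (t * r' * t⁻¹) * r))
    (hRi : ∀ t ∈ T, t ∉ Subgroup.normalizer (R : Set S) → ∀ x, x ∈ R → x ∈ cj t R → x = 1)
    (hTc : ∀ r ∈ R, r ∉ Subgroup.normalizer (T : Set S) → (∀ t ∈ T, ∀ t' ∈ T, t * (r * t' * r⁻¹) = (r * t' * r⁻¹) * t))
    (hTi : ∀ r ∈ R, r ∉ Subgroup.normalizer (T : Set S) → ∀ x, x ∈ T → x ∈ cj r T → x = 1)
    (hT2 : ∃ t ∈ T, t ^ 2 ≠ 1) (hcase : (∃ t ∈ T, t ∉ Subgroup.normalizer (R : Set S)) ∨ T ≤ Subgroup.normalizer (R : Set S)) :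
    R ≤ Subgroup.normalizer (T : Set S) := by
  by_contra hcon
  obtain ⟨r, hr, hrN⟩ := SetLike.not_le_iff_exists.1 hcon
  have hint : ∀ x, x ∈ R → x ∈ T → x = 1 := by
    intro x hx hx'
    have : x ∈ R ⊓ T := ⟨hx, hx'⟩
    rwa [hRT, Subgroup.mem_bot] at this
  rcases hcase with ⟨t, ht, htN⟩ | hTN
  · -- both non normalizing
    have hinvT : ∀ t ∈ T, t ∉ Subgroup.normalizer (R : Set S) → t ^ 2 = 1 := by
      intro t' ht' ht'N
      exact sq_eq_one_of hR2 hTc hTi hRc hr hrN ht' ht'N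
    obtain ⟨t₂, ht₂, ht₂2⟩ := hT2
    have ht₂N : t₂ ∈ T ⊓ Subgroup.normalizer (R : Set S) := by
      refine ⟨ht₂, ?_⟩
      by_contra h
      exact ht₂2 (hinvT _ ht₂ h)
    obtain ⟨t₀, ht₀, ht₀2, ht₀4⟩ := exists_order_four (hTp.to_le inf_le_left) ht₂N ht₂2
    have h1 : t * t₀ * t⁻¹ = t₀⁻¹ := by
      have h2 : t * t₀ ∉ Subgroup.normalizer (R : Set S) := by
        intro h
        apply htN
        have := mul_mem h (inv_mem ht₀.2)
        rwa [mul_inv_cancel_right] at this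
      have h3 := hinvT _ (mul_mem ht ht₀.1) h2
      have h4 := hinvT _ ht htN
      have h5 : t⁻¹ = t := by
        rw [inv_eq_iff_mul_eq_one, ← sq]; exact h4
      rw [h5]
      rw [sq] at h3
      rw [eq_inv_iff_mul_eq_one]
      calc t * t₀ * t * t₀ = t * t₀ * (t * t₀) := by group
        _ = 1 := h3
    set s := r * t₀ * r⁻¹ with hs
    have hst₀ : t₀ * s = s * t₀ := hTc r hr hrN t₀ ht₀.1 t₀ ht₀.1
    have hts : t * s = s * t := hTc r hr hrN t ht t₀ ht₀.1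
    have huR : t₀⁻¹ * s ∈ R := by
      have : t₀⁻¹ * s = (t₀⁻¹ * r * t₀) * r⁻¹ := by rw [hs]; group
      rw [this]
      exact mul_mem (inv_conj_mem_of_normalizer ht₀.2 hr) (inv_mem hr)
    have hut : t * (t₀⁻¹ * s) * t⁻¹ = t₀ * s := by
      calc t * (t₀⁻¹ * s) * t⁻¹ = (t * t₀ * t⁻¹)⁻¹ * (t * s) * t⁻¹ := by group
        _ = t₀ * s := by rw [h1, hts]; group
    have hsq1 : (t₀⁻¹ * s) ^ 2 = (t₀ ^ 2)⁻¹ * s ^ 2 := by
      have : Commute t₀⁻¹ s := Commute.inv_left hst₀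
      rw [this.mul_pow, inv_pow]
    have hsq2 : (t₀ * s) ^ 2 = t₀ ^ 2 * s ^ 2 := (show Commute t₀ s from hst₀).mul_pow 2
    have h4 : (t₀ ^ 2)⁻¹ = t₀ ^ 2 := by
      rw [inv_eq_iff_mul_eq_one, ← pow_add]; exact ht₀4
    have h5 : (t₀⁻¹ * s) ^ 2 = 1 := by
      apply hRi t ht htN
      · exact pow_mem huR 2
      · rw [hsq1, h4, ← hsq2, ← hut]
        exact pow_mem (conj_mem_cj huR) 2
    rw [hsq1, h4] at h5
    have h6 : s ^ 2 = t₀ ^ 2 := by
      calc s ^ 2 = (t₀ ^ 2)⁻¹ * (t₀ ^ 2 * s ^ 2) := by group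
        _ = (t₀ ^ 2)⁻¹ := by rw [h5, mul_one]
        _ = t₀ ^ 2 := h4
    apply ht₀2
    apply hTi r hr hrN
    · exact pow_mem ht₀.1 2
    · rw [← h6]
      exact pow_mem (conj_mem_cj ht₀.1) 2
  · -- T normalizes R
    have hTab : ∀ t ∈ T, ∀ t' ∈ T, t * (r * t' * r⁻¹ * t'⁻¹) = (r * t' * r⁻¹ * t'⁻¹) * t := by
      intro t ht t' ht'
      have hd : r * t' * r⁻¹ * t'⁻¹ ∈ R := by
        have : r * t' * r⁻¹ * t'⁻¹ = r * (t' * r⁻¹ * t'⁻¹) := by group
        rw [this]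
        exact mul_mem hr (conj_mem_of_normalizer (hTN ht') (inv_mem hr))
      set d := r * t' * r⁻¹ * t'⁻¹ with hdd
      have h1 : t * (r * t' * r⁻¹) = (r * t' * r⁻¹) * t := hTc r hr hrN t ht t' ht'
      have e : r * t' * r⁻¹ = d * t' := by rw [hdd]; group
      rw [e] at h1
      have h2 : t * t' * t⁻¹ * t'⁻¹ = (t * d * t⁻¹)⁻¹ * d := by
        calc t * t' * t⁻¹ * t'⁻¹ = (t * d * t⁻¹)⁻¹ * (t * (d * t')) * t⁻¹ * t'⁻¹ := by group
          _ = (t * d * t⁻¹)⁻¹ * (d * t' * t) * t⁻¹ * t'⁻¹ := by rw [h1]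
          _ = (t * d * t⁻¹)⁻¹ * d := by group
      have h3 : (t * d * t⁻¹)⁻¹ * d = 1 := by
        apply hint
        · exact mul_mem (inv_mem (conj_mem_of_normalizer (hTN ht) hd)) hd
        · rw [← h2]
          exact mul_mem (mul_mem (mul_mem ht ht') (inv_mem ht)) (inv_mem ht')
      have h4 : t * d * t⁻¹ = d := by
        rw [inv_mul_eq_one] at h3; exact h3
      calc t * d = t * d * t⁻¹ * t := by group
        _ = d * t := by rw [h4]
    -- injective map T → R ⊓ centralizer T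
    let f : T → (R ⊓ Subgroup.centralizer (T : Set S) : Subgroup S) := fun t' =>
      ⟨r * t' * r⁻¹ * (t' : S)⁻¹, by
        refine ⟨?_, ?_⟩
        · have : r * (t' : S) * r⁻¹ * (t' : S)⁻¹ = r * (t' * r⁻¹ * (t' : S)⁻¹) := by group
          rw [this]
          exact mul_mem hr (conj_mem_of_normalizer (hTN t'.2) (inv_mem hr))
        · change r * (t' : S) * r⁻¹ * (t' : S)⁻¹ ∈ Subgroup.centralizer (T : Set S)
          rw [Subgroup.mem_centralizer_iff]
          intro t ht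
          exact hTab t ht t' t'.2⟩
    have hf : Function.Injective f := by
      intro a b hab
      have h1 : r * (a : S) * r⁻¹ * (a : S)⁻¹ = r * (b : S) * r⁻¹ * (b : S)⁻¹ := congrArg Subtype.val hab
      have h2 : r * ((b : S)⁻¹ * a) * r⁻¹ = (b : S)⁻¹ * a := by
        calc r * ((b : S)⁻¹ * a) * r⁻¹ = ((r * (b : S) * r⁻¹ * (b : S)⁻¹) * b)⁻¹ * ((r * (a : S) * r⁻¹ * (a : S)⁻¹) * a) := by group
          _ = (b : S)⁻¹ * a := by rw [h1]; group
      have h4 : (b : S)⁻¹ * a = 1 := by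
        apply hTi r hr hrN
        · exact mul_mem (inv_mem b.2) a.2
        · rw [← h2]
          exact conj_mem_cj (mul_mem (inv_mem b.2) a.2)
      apply Subtype.ext
      rw [inv_mul_eq_one] at h4
      exact h4.symm
    have hle : Nat.card T ≤ Nat.card (R ⊓ Subgroup.centralizer (T : Set S) : Subgroup S) :=
      Nat.card_le_card_of_injective f hf
    have hlt : R ⊓ Subgroup.centralizer (T : Set S) < R := by
      refine lt_of_le_of_ne inf_le_left ?_
      intro h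
      apply hrN
      rw [← h] at hr
      exact (Subgroup.centralizer_le_normalizer (T : Set S)) hr.2
    have hlt2 : Nat.card (R ⊓ Subgroup.centralizer (T : Set S) : Subgroup S) < Nat.card R := by
      refine lt_of_le_of_ne (Subgroup.card_le_of_le hlt.le) ?_
      intro h
      exact hlt.ne (Subgroup.eq_of_le_of_card_ge hlt.le h.ge)
    omega

theorem sq_ne_one_of_frattini {R : Type*} [Group R] [Finite R] (h : frattini R ≠ ⊥) : ∃ r : R, r ^ 2 ≠ 1 := by
  haveI : Fact (Nat.Prime 2) := ⟨Nat.prime_two⟩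
  by_contra hcon
  push Not at hcon
  apply h
  rw [eq_bot_iff]
  apply Cfsg.Agent.Solv.frattini_le_of_elementary_quotient (p := 2)
  · rw [commutator_def, Subgroup.commutator_le]
    intro x _ y _
    rw [Subgroup.mem_bot]
    have hx : x⁻¹ = x := by rw [inv_eq_iff_mul_eq_one, ← sq]; exact hcon x
    have hy : y⁻¹ = y := by rw [inv_eq_iff_mul_eq_one, ← sq]; exact hcon y
    have hxy := hcon (x * y)
    rw [commutatorElement_def, hx, hy]
    rw [sq] at hxy
    rw [← hxy]; group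
  · intro x
    rw [Subgroup.mem_bot]; exact hcon x

theorem main_of [Finite S] {H₀ : Subgroup S} (hS : IsPGroup 2 H₀)
    (Δ : Set (Subgroup S)) (hinv : ∀ s ∈ H₀, ∀ R ∈ Δ, R.map (MulAut.conj s).toMonoidHom ∈ Δ)
    (hΦ : ∀ R ∈ Δ, ∃ r ∈ R, r ^ 2 ≠ 1) (hord : ∀ R ∈ Δ, ∀ T ∈ Δ, Nat.card ↥R = Nat.card ↥T)
    (hti : ∀ R ∈ Δ, ∀ T ∈ Δ, R = T ∨ R ⊓ T = ⊥) :
    ∀ R ∈ Δ, ∀ T ∈ Δ, R ≤ H₀ → T ≤ H₀ → R ≠ T → ∀ r ∈ R, ∀ t ∈ T, r * t = t * r := by
  suffices key : ∀ n : ℕ, ∀ H : Subgroup S, H ≤ H₀ → Nat.card H = n → ∀ R ∈ Δ, ∀ T ∈ Δ, R ≤ H → T ≤ H → R ≠ T →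
      ∀ r ∈ R, ∀ t ∈ T, r * t = t * r by
    intro R hR T hT hRH hTH hne
    exact key _ H₀ le_rfl rfl R hR T hT hRH hTH hne
  intro n
  induction n using Nat.strong_induction_on with
  | _ n ih =>
    intro H hHH hH R hR T hT hRH hTH hne
    have hH2 : IsPGroup 2 H := hS.to_le hHH
    by_cases hlt : R ⊔ T < H
    · have hc : Nat.card (R ⊔ T : Subgroup S) < n := by
        rw [← hH]
        refine lt_of_le_of_ne (Subgroup.card_le_of_le hlt.le) ?_
        intro h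
        exact hlt.ne (Subgroup.eq_of_le_of_card_ge hlt.le h.ge)
      exact ih _ hc _ (hlt.le.trans hHH) rfl R hR T hT le_sup_left le_sup_right hne
    -- H = R ⊔ T
    have hbot : R ⊓ T = ⊥ := (hti R hR T hT).resolve_left hne
    -- proper
    have hproper : ∀ A ∈ Δ, ∀ B ∈ Δ, A ≤ H → B ≤ H → A ≠ B → A < H := by
      intro A hA B hB hAH hBH hAB
      refine lt_of_le_of_ne hAH ?_
      intro h
      subst h
      exact hAB (Subgroup.eq_of_le_of_card_ge hBH (hord A hA B hB).le).symm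
    have hconj : ∀ A ∈ Δ, A < H → ∀ h ∈ H, h ∉ Subgroup.normalizer (A : Set S) →
        (∀ a ∈ A, ∀ a' ∈ A, a * (h * a' * h⁻¹) = (h * a' * h⁻¹) * a) ∧
        (∀ x, x ∈ A → x ∈ cj h A → x = 1) := by
      intro A hA hAH h hh hhN
      obtain ⟨M, hAM, hMH, hHM⟩ := exists_normal_over hH2 hAH
      have hcjM : cj h A ≤ M := by
        rintro _ ⟨x, hx, rfl⟩
        exact conj_mem_of_normalizer (hHM hh) (hAM hx)
      have hneA : A ≠ cj h A := fun h' => hhN (cj_eq_iff.1 h'.symm)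
      have hc : Nat.card M < n := by
        rw [← hH]
        refine lt_of_le_of_ne (Subgroup.card_le_of_le hMH.le) ?_
        intro h
        exact hMH.ne (Subgroup.eq_of_le_of_card_ge hMH.le h.ge)
      refine ⟨?_, ?_⟩
      · intro a ha a' ha'
        exact ih _ hc M (hMH.le.trans hHH) rfl A hA (cj h A) (hinv h (hHH hh) A hA) hAM hcjM hneA a ha _ (conj_mem_cj ha')
      · intro x hx hx'
        have h1 := (hti A hA _ (hinv h (hHH hh) A hA)).resolve_left hneA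
        have : x ∈ A ⊓ cj h A := ⟨hx, hx'⟩
        rw [h1, Subgroup.mem_bot] at this
        exact this
    have hRl := hproper R hR T hT hRH hTH hne
    have hTl := hproper T hT R hR hTH hRH hne.symm
    have hcases : ∀ A B : Subgroup S, (∃ b ∈ B, b ∉ Subgroup.normalizer (A : Set S)) ∨ B ≤ Subgroup.normalizer (A : Set S) := by
      intro A B
      by_cases h : B ≤ Subgroup.normalizer (A : Set S)
      · exact Or.inr h
      · exact Or.inl (SetLike.not_le_iff_exists.1 h)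
    have hRN : R ≤ Subgroup.normalizer (T : Set S) :=
      core (hH2.to_le hRH) (hH2.to_le hTH) (hord R hR T hT) hbot
        (fun t ht htN => (hconj R hR hRl t (hTH ht) htN).1) (fun t ht htN => (hconj R hR hRl t (hTH ht) htN).2)
        (fun r hr hrN => (hconj T hT hTl r (hRH hr) hrN).1) (fun r hr hrN => (hconj T hT hTl r (hRH hr) hrN).2)
        (hΦ T hT) (hcases R T)
    have hTN : T ≤ Subgroup.normalizer (R : Set S) :=
      core (hH2.to_le hTH) (hH2.to_le hRH) (hord T hT R hR) (by rw [inf_comm]; exact hbot)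
        (fun t ht htN => (hconj T hT hTl t (hRH ht) htN).1) (fun t ht htN => (hconj T hT hTl t (hRH ht) htN).2)
        (fun r hr hrN => (hconj R hR hRl r (hTH hr) hrN).1) (fun r hr hrN => (hconj R hR hRl r (hTH hr) hrN).2)
        (hΦ R hR) (hcases T R)
    intro r hr t ht
    have h1 : r * t * r⁻¹ * t⁻¹ ∈ R ⊓ T := by
      refine Subgroup.mem_inf.2 ⟨?_, ?_⟩
      · have : r * t * r⁻¹ * t⁻¹ = r * (t * r⁻¹ * t⁻¹) := by group
        rw [this]
        exact mul_mem hr (conj_mem_of_normalizer (hTN ht) (inv_mem hr))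
      · exact mul_mem (conj_mem_of_normalizer (hRN hr) ht) (inv_mem ht)
    rw [hbot, Subgroup.mem_bot] at h1
    calc r * t = (r * t * r⁻¹ * t⁻¹) * (t * r) := by group
      _ = t * r := by rw [h1, one_mul]

theorem main [Finite S] (hS : IsPGroup 2 S)
    (Δ : Set (Subgroup S)) (hinv : ∀ s : S, ∀ R ∈ Δ, R.map (MulAut.conj s).toMonoidHom ∈ Δ)
    (hΦ : ∀ R ∈ Δ, ∃ r ∈ R, r ^ 2 ≠ 1) (hord : ∀ R ∈ Δ, ∀ T ∈ Δ, Nat.card ↥R = Nat.card ↥T)
    (hti : ∀ R ∈ Δ, ∀ T ∈ Δ, R = T ∨ R ⊓ T = ⊥) :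
    ∀ R ∈ Δ, ∀ T ∈ Δ, R ≠ T → ∀ r ∈ R, ∀ t ∈ T, r * t = t * r := by
  intro R hR T hT hne
  exact main_of (H₀ := ⊤) (hS.to_subgroup ⊤) Δ (fun s _ => hinv s) hΦ hord hti R hR T hT le_top le_top hne

end Cfsg.Agent.H64.TIFam
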