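import Cfsg.Prelude.Def_Local
import Cfsg.Prelude.Def_Transfer
import Cfsg.Agent.H64.TIFam
import Cfsg.Agent.FStar.Layer
import Cfsg.Agent.Cop.Basic
import Cfsg.Agent.Solv.Core

set_option autoImplicit false

namespace Cfsg.Agent.H64.TIRad
open Cfsg.Agent.H64.TIFam

variable {X : Type*} [Group X]

/-- elements acting trivially on `Q / D` -/
def actKer (Q D : Subgroup X) (hQ : Q.Normal) (hD : D.Normal) : Subgroup X where
  carrier := {x | ∀ q ∈ Q, x * q * x⁻¹ * q⁻¹ ∈ D}
  one_mem' := by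
    intro q _
    simp
  mul_mem' := by
    intro x y hx hy q hq
    have h1 : y * q * y⁻¹ ∈ Q := hQ.conj_mem q hq y
    have := mul_mem (hx _ h1) (hy q hq)
    have e : x * (y * q * y⁻¹) * x⁻¹ * (y * q * y⁻¹)⁻¹ * (y * q * y⁻¹ * q⁻¹) = x * y * q * (x * y)⁻¹ * q⁻¹ := by group
    rwa [e] at this
  inv_mem' := by
    intro x hx q hq
    have h1 : x⁻¹ * q * x ∈ Q := by
      have := hQ.conj_mem q hq x⁻¹
      rwa [inv_inv] at this
    have := inv_mem (hx _ h1)
    have e : (x * (x⁻¹ * q * x) * x⁻¹ * (x⁻¹ * q * x)⁻¹)⁻¹ = x⁻¹ * q * x⁻¹⁻¹ * q⁻¹ := by group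
    rwa [e] at this

theorem mem_actKer {Q D : Subgroup X} {hQ : Q.Normal} {hD : D.Normal} {x : X} :
    x ∈ actKer Q D hQ hD ↔ ∀ q ∈ Q, x * q * x⁻¹ * q⁻¹ ∈ D := Iff.rfl

theorem actKer_normal (Q D : Subgroup X) (hQ : Q.Normal) (hD : D.Normal) : (actKer Q D hQ hD).Normal := by
  constructor
  intro x hx g
  rw [mem_actKer]
  intro q hq
  have h1 : g⁻¹ * q * g ∈ Q := by
    have := hQ.conj_mem q hq g⁻¹
    rwa [inv_inv] at this
  have := hD.conj_mem _ (hx _ h1) g
  have e : g * (x * (g⁻¹ * q * g) * x⁻¹ * (g⁻¹ * q * g)⁻¹) * g⁻¹ = g * x * g⁻¹ * q * (g * x * g⁻¹)⁻¹ * q⁻¹ := by group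
  rwa [e] at this

/-- a finite group all of whose elements of odd order are trivial is a 2-group -/
theorem isPGroup_of_odd {N : Type*} [Group N] [Finite N] {p : ℕ} [hp : Fact p.Prime]
    (h : ∀ x : N, (orderOf x).Coprime p → x = 1) : IsPGroup p N := by
  intro x
  obtain ⟨k, m, hm, hk⟩ := Nat.exists_eq_pow_mul_and_not_dvd (n := orderOf x) (orderOf_pos x).ne' p hp.out.ne_one
  refine ⟨k, h _ ?_⟩
  rw [orderOf_pow, hk, Nat.gcd_eq_right (dvd_mul_right _ _), Nat.mul_div_cancel_left _ (pow_pos hp.out.pos k)]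
  exact ((Nat.Prime.coprime_iff_not_dvd hp.out).2 hm).symm

theorem actKer_le [Finite X] {p : ℕ} [hp : Fact p.Prime] (hX : Cfsg.generalizedFittingSubgroup X = Cfsg.pCore p X)
    (x : X) (hx : ∀ q ∈ Cfsg.pCore p X, x * q * x⁻¹ * q⁻¹ ∈ (frattini (Cfsg.pCore p X)).map (Cfsg.pCore p X).subtype) :
    x ∈ Cfsg.pCore p X := by
  set Q := Cfsg.pCore p X with hQ
  have hQn : Q.Normal := inferInstance
  set D := (frattini Q).map Q.subtype with hD
  have hDn : D.Normal := by
    rw [hD]; infer_instance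
  have hQp : IsPGroup p Q := Cfsg.Agent.Solv.pCore_isPGroup p
  have hC : Subgroup.centralizer (Q : Set X) ≤ Q := by
    have := Cfsg.Agent.FStar.centralizer_generalizedFitting_le (G := X)
    rwa [hX] at this
  set N := actKer Q D hQn hDn with hN
  have hNn : N.Normal := actKer_normal Q D hQn hDn
  have hNp : IsPGroup p N := by
    apply isPGroup_of_odd
    rintro ⟨y, hy⟩ hyo
    rw [Subgroup.orderOf_mk] at hyo
    have h1 : Subgroup.zpowers y ≤ Subgroup.centralizer (Q : Set X) := by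
      apply Cfsg.Agent.Cop.le_centralizer_of_frattini
      · exact le_top.trans (Subgroup.normalizer_eq_top_iff.2 hQn).ge
      · rw [Nat.card_zpowers]
        obtain ⟨k, hk⟩ := (hQp.to_subgroup (frattini Q)).exists_card_eq
        rw [hk]
        exact hyo.pow_right k
      · intro a ha q hq
        have : Subgroup.zpowers y ≤ N := by
          rw [Subgroup.zpowers_le]; exact hy
        exact mem_actKer.1 (this ha) q hq
    have h2 : y ∈ Q := hC (h1 (Subgroup.mem_zpowers y))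
    obtain ⟨k, hk⟩ := (IsPGroup.iff_orderOf.1 hQp) ⟨y, h2⟩
    rw [Subgroup.orderOf_mk] at hk
    have h3 : orderOf y = 1 := by
      have h4 : (orderOf y).Coprime (orderOf y) := by
        conv => rhs; rw [hk]
        exact hyo.pow_right k
      exact (Nat.coprime_self _).1 h4
    exact Subtype.ext (orderOf_eq_one_iff.1 h3)
  exact Cfsg.Agent.Solv.le_pCore hNn hNp hx

theorem cj_mul (a b : X) (A : Subgroup X) : cj a (cj b A) = cj (a * b) A := by
  ext x
  rw [mem_cj, mem_cj, mem_cj]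
  have : (a * b)⁻¹ * x * (a * b) = b⁻¹ * (a⁻¹ * x * a) * b := by group
  rw [this]

theorem card_cj (a : X) (A : Subgroup X) : Nat.card (cj a A) = Nat.card A :=
  Nat.card_congr (A.equivMapOfInjective _ (MulAut.conj a).injective).symm.toEquiv

theorem ti_family {A : Subgroup X}
    (hti : ∀ h : X, cj h A = A ∨ cj h A ⊓ A = ⊥) (x y : X) : cj x A = cj y A ∨ cj x A ⊓ cj y A = ⊥ := by
  rcases hti (y⁻¹ * x) with h | h
  · left
    have := congrArg (cj y) h
    rwa [cj_mul, mul_inv_cancel_left] at this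
  · right
    rw [eq_bot_iff]
    intro z hz
    have h1 : y⁻¹ * z * y ∈ cj (y⁻¹ * x) A ⊓ A := by
      refine Subgroup.mem_inf.2 ⟨?_, ?_⟩
      · rw [mem_cj]
        have := mem_cj.1 hz.1
        have e : (y⁻¹ * x)⁻¹ * (y⁻¹ * z * y) * (y⁻¹ * x) = x⁻¹ * z * x := by group
        rwa [e]
      · exact mem_cj.1 hz.2
    rw [h, Subgroup.mem_bot] at h1
    rw [Subgroup.mem_bot]
    calc z = y * (y⁻¹ * z * y) * y⁻¹ := by group
      _ = 1 := by rw [h1]; group

theorem main [Finite X]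
    (hX : Cfsg.generalizedFittingSubgroup X = Cfsg.pCore 2 X) (A : Subgroup X) (hA2 : IsPGroup 2 ↥A) (hAa : IsMulCommutative ↥A)
    (hti : ∀ h : X, A.map (MulAut.conj h).toMonoidHom = A ∨ A.map (MulAut.conj h).toMonoidHom ⊓ A = ⊥) :
    Subgroup.closure ((fun a : X => a ^ 2) '' (A : Set X)) ≤ Cfsg.pCore 2 X ∧
      (¬ Cfsg.IsElementaryAbelian 2 (Subgroup.closure ((fun a : X => a ^ 2) '' (A : Set X))) →
        IsMulCommutative ↥(Subgroup.normalClosure ((fun a : X => a ^ 2) '' (A : Set X)))) := by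
  haveI : Fact (Nat.Prime 2) := ⟨Nat.prime_two⟩
  have hcomm : ∀ a ∈ A, ∀ b ∈ A, a * b = b * a := by
    intro a ha b hb
    have := hAa.is_comm.comm (⟨a, ha⟩ : A) ⟨b, hb⟩
    exact congrArg Subtype.val this
  set Q := Cfsg.pCore 2 X with hQ
  have hQn : Q.Normal := inferInstance
  have hQp : IsPGroup 2 Q := Cfsg.Agent.Solv.pCore_isPGroup 2
  set B := Subgroup.closure ((fun a : X => a ^ 2) '' (A : Set X)) with hB
  have hBA : B ≤ A := by
    rw [hB, Subgroup.closure_le]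
    rintro _ ⟨a, ha, rfl⟩
    exact pow_mem ha 2
  have hBcomm : IsMulCommutative B := by
    constructor; constructor
    rintro ⟨a, ha⟩ ⟨b, hb⟩
    exact Subtype.ext (hcomm a (hBA ha) b (hBA hb))
  by_cases hA1 : ∀ a ∈ A, a ^ 2 = 1
  · have hB1 : B = ⊥ := by
      rw [hB, Subgroup.closure_eq_bot_iff]
      rintro _ ⟨a, ha, rfl⟩
      exact hA1 a ha
    refine ⟨by rw [hB1]; exact bot_le, fun h => ?_⟩
    exfalso
    apply h
    refine ⟨hBcomm, ?_⟩
    intro b hb
    rw [hB1, Subgroup.mem_bot] at hb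
    rw [hb, one_pow]
  · push Not at hA1
    obtain ⟨a₀, ha₀, ha₀2⟩ := hA1
    have hBQ : B ≤ Q := by
      rw [hB, Subgroup.closure_le]
      rintro _ ⟨a, ha, rfl⟩
      change a ^ 2 ∈ Q
      apply actKer_le hX
      intro q hq
      rw [← hQ] at hq ⊢
      have hH2 : IsPGroup 2 (A ⊔ Q : Subgroup X) := hA2.to_sup_of_normal_right hQp
      have h1 : a * (q * a * q⁻¹) = (q * a * q⁻¹) * a := by
        by_cases hne : A = cj q A
        · have h2 : q * a * q⁻¹ ∈ A := by
            rw [hne]; exact conj_mem_cj ha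
          exact hcomm a ha _ h2
        · refine main_of hH2 {R | ∃ x : X, R = cj x A} ?_ ?_ ?_ ?_ A ⟨1, ?_⟩ (cj q A) ⟨q, rfl⟩ le_sup_left ?_ hne a ha _
            (conj_mem_cj ha)
          · rintro s _ R ⟨x, rfl⟩
            exact ⟨s * x, cj_mul s x A⟩
          · rintro R ⟨x, rfl⟩
            refine ⟨_, conj_mem_cj ha₀, ?_⟩
            intro h
            apply ha₀2
            rw [conj_pow] at h
            calc a₀ ^ 2 = x⁻¹ * (x * a₀ ^ 2 * x⁻¹) * x := by group
              _ = 1 := by rw [h]; group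
          · rintro R ⟨x, rfl⟩ T ⟨y, rfl⟩
            rw [card_cj, card_cj]
          · rintro R ⟨x, rfl⟩ T ⟨y, rfl⟩
            exact ti_family hti x y
          · ext z; rw [mem_cj]; simp
          · rintro _ ⟨y, hy, rfl⟩
            change q * y * q⁻¹ ∈ _
            have hq' : q ∈ A ⊔ Q := Subgroup.mem_sup_right hq
            exact mul_mem (mul_mem hq' (Subgroup.mem_sup_left hy)) (inv_mem hq')
      set c := a * q * a⁻¹ * q⁻¹ with hc
      have hcQ : c ∈ Q := by
        have : c = (a * q * a⁻¹) * q⁻¹ := by rw [hc]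
        rw [this]
        exact mul_mem (hQn.conj_mem q hq a) (inv_mem hq)
      have h2 : a * c * a⁻¹ = c := by
        have e : c = a * (q * a * q⁻¹)⁻¹ := by rw [hc]; group
        rw [e]
        have h3 : a * (q * a * q⁻¹)⁻¹ = (q * a * q⁻¹)⁻¹ * a := by
          exact (Commute.inv_right h1)
        calc a * (a * (q * a * q⁻¹)⁻¹) * a⁻¹ = a * ((q * a * q⁻¹)⁻¹ * a) * a⁻¹ := by rw [h3]
          _ = a * (q * a * q⁻¹)⁻¹ := by group
      have h4 : a ^ 2 * q * (a ^ 2)⁻¹ * q⁻¹ = c ^ 2 := by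
        calc a ^ 2 * q * (a ^ 2)⁻¹ * q⁻¹ = (a * c * a⁻¹) * c := by
              rw [hc, sq]; group
          _ = c ^ 2 := by rw [h2, sq]
      rw [h4]
      refine ⟨⟨c, hcQ⟩ ^ 2, Cfsg.Agent.Solv.pow_mem_frattini_of_pGroup hQp _, rfl⟩
    refine ⟨hBQ, fun hnot => ?_⟩
    obtain ⟨b₀, hb₀, hb₀2⟩ : ∃ b ∈ B, b ^ 2 ≠ 1 := by
      by_contra hcon
      push Not at hcon
      exact hnot ⟨hBcomm, hcon⟩
    have hcjB : ∀ x : X, cj x B = Subgroup.closure ((fun a : X => a ^ 2) '' (cj x A : Set X)) := by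
      intro x
      rw [hB, cj, MonoidHom.map_closure]
      congr 1
      ext z
      constructor
      · rintro ⟨_, ⟨a, ha, rfl⟩, rfl⟩
        exact ⟨x * a * x⁻¹, conj_mem_cj ha, by
          change (x * a * x⁻¹) ^ 2 = x * a ^ 2 * x⁻¹
          rw [conj_pow]⟩
      · rintro ⟨_, ⟨a, ha, rfl⟩, rfl⟩
        exact ⟨a ^ 2, ⟨a, ha, rfl⟩, by
          change x * a ^ 2 * x⁻¹ = (x * a * x⁻¹) ^ 2
          rw [conj_pow]⟩
    have hfam : ∀ x y : X, cj x B ≠ cj y B → ∀ r ∈ cj x B, ∀ t ∈ cj y B, r * t = t * r := by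
      intro x y hne
      have hle : ∀ x : X, cj x B ≤ Q := by
        rintro x _ ⟨b, hb, rfl⟩
        exact hQn.conj_mem b (hBQ hb) x
      refine main_of hQp {R | ∃ x : X, R = cj x B} ?_ ?_ ?_ ?_ (cj x B) ⟨x, rfl⟩ (cj y B) ⟨y, rfl⟩ (hle x) (hle y) hne
      · rintro s _ R ⟨x, rfl⟩
        exact ⟨s * x, cj_mul s x B⟩
      · rintro R ⟨x, rfl⟩
        refine ⟨_, conj_mem_cj hb₀, ?_⟩
        intro h
        apply hb₀2
        rw [conj_pow] at h
        calc b₀ ^ 2 = x⁻¹ * (x * b₀ ^ 2 * x⁻¹) * x := by group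
          _ = 1 := by rw [h]; group
      · rintro R ⟨x, rfl⟩ T ⟨y, rfl⟩
        rw [card_cj, card_cj]
      · rintro R ⟨x, rfl⟩ T ⟨y, rfl⟩
        rcases ti_family hti x y with h | h
        · left
          rw [hcjB, hcjB]
          change Subgroup.closure ((fun a : X => a ^ 2) '' (cj x A : Set X)) = Subgroup.closure ((fun a : X => a ^ 2) '' (cj y A : Set X))
          rw [h]
        · right
          rw [eq_bot_iff, ← h]
          exact inf_le_inf (Subgroup.map_mono hBA) (Subgroup.map_mono hBA)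
    have hcc : ∀ x ∈ Group.conjugatesOfSet ((fun a : X => a ^ 2) '' (A : Set X)),
        ∀ y ∈ Group.conjugatesOfSet ((fun a : X => a ^ 2) '' (A : Set X)), x * y = y * x := by
      intro x hx y hy
      rw [Group.mem_conjugatesOfSet_iff] at hx hy
      obtain ⟨u, hu, hux⟩ := hx
      obtain ⟨v, hv, hvy⟩ := hy
      obtain ⟨g, rfl⟩ := isConj_iff.1 hux
      obtain ⟨h, rfl⟩ := isConj_iff.1 hvy
      have hu' : u ∈ B := Subgroup.subset_closure hu
      have hv' : v ∈ B := Subgroup.subset_closure hv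
      by_cases hne : cj g B = cj h B
      · have h1 : g * u * g⁻¹ ∈ cj g B := conj_mem_cj hu'
        have h2 : h * v * h⁻¹ ∈ cj g B := by rw [hne]; exact conj_mem_cj hv'
        rw [mem_cj] at h1 h2
        have h3 := hcomm _ (hBA h1) _ (hBA h2)
        calc g * u * g⁻¹ * (h * v * h⁻¹) = g * (g⁻¹ * (g * u * g⁻¹) * g * (g⁻¹ * (h * v * h⁻¹) * g)) * g⁻¹ := by group
          _ = g * (g⁻¹ * (h * v * h⁻¹) * g * (g⁻¹ * (g * u * g⁻¹) * g)) * g⁻¹ := by rw [h3]
          _ = h * v * h⁻¹ * (g * u * g⁻¹) := by group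
      · exact hfam g h hne _ (conj_mem_cj hu') _ (conj_mem_cj hv')
    exact Subgroup.isMulCommutative_closure hcc

end Cfsg.Agent.H64.TIRad
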