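import Cfsg.Prelude.Def_ClassificationK
import Cfsg.Agent.H64.SQ
import Cfsg.Agent.H64.SympE
import Cfsg.Agent.H64.TIRad

set_option autoImplicit false

open scoped commutatorElement

namespace Cfsg.Agent.H64.SyI

open Cfsg

/-- commuting subgroups generate their product -/
theorem exists_mul_of_sup {F : Type*} [Group F] {E R : Subgroup F} (hcomm : ∀ e ∈ E, ∀ r ∈ R, e * r = r * e)
    (hsup : E ⊔ R = ⊤) (x : F) : ∃ e ∈ E, ∃ r ∈ R, x = e * r := by
  let K : Subgroup F :=
    { carrier := {x | ∃ e ∈ E, ∃ r ∈ R, x = e * r}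
      one_mem' := ⟨1, one_mem _, 1, one_mem _, by simp⟩
      mul_mem' := by
        rintro _ _ ⟨e, he, r, hr, rfl⟩ ⟨e', he', r', hr', rfl⟩
        refine ⟨e * e', mul_mem he he', r * r', mul_mem hr hr', ?_⟩
        calc e * r * (e' * r') = e * (r * e') * r' := by group
          _ = e * e' * (r * r') := by rw [← hcomm e' he' r hr]; group
      inv_mem' := by
        rintro _ ⟨e, he, r, hr, rfl⟩
        refine ⟨e⁻¹, inv_mem he, r⁻¹, inv_mem hr, ?_⟩
        rw [hcomm e he r hr, mul_inv_rev] }
  have h : E ⊔ R ≤ K := by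
    refine sup_le ?_ ?_
    · intro e he; exact ⟨e, he, 1, one_mem _, by simp⟩
    · intro r hr; exact ⟨1, one_mem _, r, hr, by simp⟩
  have : x ∈ K := h (by rw [hsup]; trivial)
  exact this

section
variable {F : Type*} [Group F] [Finite F]

/-- structure of a 2-group of symplectic type and exponent four -/
theorem symp_four (hF : Cfsg.IsOfSymplecticType F) (h4 : ∀ q : F, q ^ 4 = 1) {z : F}
    (hz2 : z * z = 1) (hz1 : z ≠ 1) (hzc : ∀ x : F, x * z = z * x) :
    (∀ x : F, (∀ y : F, y * x = x * y) → x * x = 1 → x = 1 ∨ x = z) ∧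
    (∀ x y : F, x * y * x⁻¹ * y⁻¹ = 1 ∨ x * y * x⁻¹ * y⁻¹ = z) ∧ (∀ x : F, x * x = 1 ∨ x * x = z) := by
  haveI : Fact (Nat.Prime 2) := ⟨Nat.prime_two⟩
  have hzo : orderOf z = 2 := orderOf_eq_prime (by rw [sq]; exact hz2) hz1
  have hcen : ∀ x : F, (∀ y : F, y * x = x * y) → x * x = 1 → x = 1 ∨ x = z := by
    intro x hx hx2
    have h1 : IsCyclic (Subgroup.center F) := hF.2 _ inferInstance inferInstance
    have h2 : x ∈ Subgroup.zpowers z := by
      apply Symp.mem_zpowers_sub h1 (Subgroup.mem_center_iff.2 hzc) (Subgroup.mem_center_iff.2 hx)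
      rw [hzo, sq]; exact hx2
    obtain ⟨k, rfl⟩ := Subgroup.mem_zpowers_iff.1 h2
    rcases Int.even_or_odd' k with ⟨m, rfl | rfl⟩
    · left
      rw [zpow_mul]
      have : z ^ (2 : ℤ) = 1 := by rw [zpow_ofNat, sq]; exact hz2
      rw [this, one_zpow]
    · right
      rw [zpow_add_one, zpow_mul]
      have : z ^ (2 : ℤ) = 1 := by rw [zpow_ofNat, sq]; exact hz2
      rw [this, one_zpow, one_mul]
  obtain ⟨E, R, hcomm, hsup, hE, hR⟩ := Symp.main hF.1 hF.2
  have hR' : IsCyclic R := by
    rcases hR with h | ⟨_, h16, ⟨m, ⟨e⟩⟩ | ⟨m, ⟨e⟩⟩ | h⟩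
    · exact h
    · exfalso
      have hc := Nat.card_congr e.toEquiv
      rw [DihedralGroup.nat_card] at hc
      have h1 : (e.symm (DihedralGroup.r 1)) ^ 4 = 1 := Subtype.ext (h4 _)
      have h2 : (DihedralGroup.r 1 : DihedralGroup m) ^ 4 = 1 := by
        apply e.symm.injective
        rw [map_pow, h1, map_one]
      have h3 := orderOf_dvd_of_pow_eq_one h2
      rw [DihedralGroup.orderOf_r_one] at h3
      have := Nat.le_of_dvd (by norm_num) h3
      omega
    · exfalso
      have hm : m ≠ 0 := by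
        rintro rfl
        have hfin : Finite (QuaternionGroup 0) := Finite.of_equiv _ e.toEquiv
        have : Infinite (QuaternionGroup 0) := by
          have hinj : Function.Injective (fun i : ℤ => (QuaternionGroup.a i : QuaternionGroup 0)) := by
            intro i j hij
            exact QuaternionGroup.a.inj hij
          exact Infinite.of_injective _ hinj
        exact not_finite (QuaternionGroup 0)
      haveI : NeZero m := ⟨hm⟩
      have hc := Nat.card_congr e.toEquiv
      rw [Nat.card_eq_fintype_card (α := QuaternionGroup m), QuaternionGroup.card] at hc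
      have h1 : (e.symm (QuaternionGroup.a 1)) ^ 4 = 1 := Subtype.ext (h4 _)
      have h2 : (QuaternionGroup.a 1 : QuaternionGroup m) ^ 4 = 1 := by
        apply e.symm.injective
        rw [map_pow, h1, map_one]
      have h3 := orderOf_dvd_of_pow_eq_one h2
      rw [QuaternionGroup.orderOf_a_one] at h3
      have := Nat.le_of_dvd (by norm_num) h3
      omega
    · exfalso
      obtain ⟨n, hn, _, x, _, hx, _⟩ := h
      have h1 : x ^ 4 = 1 := Subtype.ext (h4 _)
      have h3 := orderOf_dvd_of_pow_eq_one h1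
      rw [hx] at h3
      have h5 := Nat.le_of_dvd (by norm_num) h3
      have : 2 ^ 3 ≤ 2 ^ n := Nat.pow_le_pow_right (by norm_num) hn
      omega
  have hRc : ∀ r ∈ R, ∀ r' ∈ R, r * r' = r' * r := by
    intro r hr r' hr'
    haveI := hR'
    letI : CommGroup R := IsCyclic.commGroup
    exact congrArg Subtype.val (mul_comm (⟨r, hr⟩ : R) ⟨r', hr'⟩)
  have hEc : ∀ e ∈ E, (∀ e' ∈ E, e' * e = e * e') → ∀ y : F, y * e = e * y := by
    intro e he h y
    obtain ⟨f, hf, r, hr, rfl⟩ := exists_mul_of_sup hcomm hsup y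
    calc f * r * e = f * (r * e) := by group
      _ = (f * e) * r := by rw [← hcomm e he r hr]; group
      _ = e * (f * r) := by rw [h f hf]; group
  have hRcen : ∀ r ∈ R, ∀ y : F, y * r = r * y := by
    intro r hr y
    obtain ⟨f, hf, r', hr', rfl⟩ := exists_mul_of_sup hcomm hsup y
    calc f * r' * r = f * (r' * r) := by group
      _ = (f * r) * r' := by rw [hRc r' hr' r hr]; group
      _ = r * (f * r') := by rw [hcomm f hf r hr]; group
  -- E : commutators and squares are 1 or z
  have hEcomm : ∀ e ∈ E, ∀ e' ∈ E, e * e' * e⁻¹ * e'⁻¹ = 1 ∨ e * e' * e⁻¹ * e'⁻¹ = z := by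
    intro e he e' he'
    rcases hE with h | h
    · left
      rw [h, Subgroup.mem_bot] at he he'
      rw [he, he']; group
    · have hg := Extra.ges_of_isExtraspecial h
      have h1 := hg.classTwo.mem ⟨e, he⟩ ⟨e', he'⟩
      have h2 := hg.comm_pow ⟨e, he⟩ ⟨e', he'⟩
      rw [commutatorElement_def] at h1 h2
      apply hcen
      · apply hEc _ (mul_mem (mul_mem (mul_mem he he') (inv_mem he)) (inv_mem he'))
        intro f hf
        rw [Subgroup.mem_center_iff] at h1
        exact congrArg Subtype.val (h1 ⟨f, hf⟩)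
      · rw [← sq]
        exact congrArg Subtype.val h2
  have hEsq : ∀ e ∈ E, e * e = 1 ∨ e * e = z := by
    intro e he
    rcases hE with h | h
    · left
      rw [h, Subgroup.mem_bot] at he
      rw [he, one_mul]
    · have hg := Extra.ges_of_isExtraspecial h
      have h1 := hg.pow_mem_center ⟨e, he⟩
      apply hcen
      · apply hEc _ (mul_mem he he)
        intro f hf
        rw [Subgroup.mem_center_iff] at h1
        have := congrArg Subtype.val (h1 ⟨f, hf⟩)
        simpa [sq] using this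
      · have := h4 e
        calc e * e * (e * e) = e ^ 4 := by simp only [pow_succ, pow_zero, one_mul, mul_assoc]
          _ = 1 := this
  have hRsq : ∀ r ∈ R, r * r = 1 ∨ r * r = z := by
    intro r hr
    apply hcen
    · exact hRcen _ (mul_mem hr hr)
    · calc r * r * (r * r) = r ^ 4 := by simp only [pow_succ, pow_zero, one_mul, mul_assoc]
        _ = 1 := h4 r
  refine ⟨hcen, ?_, ?_⟩
  · intro x y
    obtain ⟨e, he, r, hr, rfl⟩ := exists_mul_of_sup hcomm hsup x
    obtain ⟨e', he', r', hr', rfl⟩ := exists_mul_of_sup hcomm hsup y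
    have : e * r * (e' * r') * (e * r)⁻¹ * (e' * r')⁻¹ = e * e' * e⁻¹ * e'⁻¹ := by
      calc e * r * (e' * r') * (e * r)⁻¹ * (e' * r')⁻¹ = e * (r * e') * r' * (r⁻¹ * e⁻¹) * (r'⁻¹ * e'⁻¹) := by group
        _ = e * e' * (r * r') * r⁻¹ * (e⁻¹ * r'⁻¹) * e'⁻¹ := by rw [← hcomm e' he' r hr]; group
        _ = e * e' * (r * r') * r⁻¹ * (r'⁻¹ * e⁻¹) * e'⁻¹ := by rw [hcomm e⁻¹ (inv_mem he) r'⁻¹ (inv_mem hr')]
        _ = e * e' * e⁻¹ * e'⁻¹ := by rw [hRc r hr r' hr']; group
    rw [this]
    exact hEcomm e he e' he'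
  · intro x
    obtain ⟨e, he, r, hr, rfl⟩ := exists_mul_of_sup hcomm hsup x
    have : e * r * (e * r) = (e * e) * (r * r) := by
      calc e * r * (e * r) = e * (r * e) * r := by group
        _ = (e * e) * (r * r) := by rw [← hcomm e he r hr]; group
    rw [this]
    rcases hEsq e he with h1 | h1 <;> rcases hRsq r hr with h2 | h2 <;> rw [h1, h2]
    · left; rw [one_mul]
    · right; rw [one_mul]
    · right; rw [mul_one]
    · left; exact hz2
end

theorem fstar_eq_pCore {X : Type*} [Group X] [Finite X] (h : IsPGroup 2 (Cfsg.generalizedFittingSubgroup X)) :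
    Cfsg.generalizedFittingSubgroup X = Cfsg.pCore 2 X := by
  haveI : Fact (Nat.Prime 2) := ⟨Nat.prime_two⟩
  apply le_antisymm
  · exact Solv.le_pCore inferInstance h
  · exact (Solv.pCore_le_fitting 2).trans le_sup_right

theorem derive {G : Type*} [Group G] [Finite G] (z : G) (hz : orderOf z = 2)
    (hQ : Cfsg.IsOfSymplecticType ↥(Cfsg.generalizedFittingSubgroup ↥(Subgroup.centralizer ({z} : Set G))))
    (h4 : ∀ q ∈ (Cfsg.generalizedFittingSubgroup ↥(Subgroup.centralizer ({z} : Set G))).map (Subgroup.centralizer ({z} : Set G)).subtype, q ^ 4 = 1)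
    {a : G} (ha : a ∈ (Cfsg.generalizedFittingSubgroup ↥(Subgroup.centralizer ({z} : Set G))).map (Subgroup.centralizer ({z} : Set G)).subtype)
    (ha2 : a * a = 1) (ha1 : a ≠ 1) (haz : a ≠ z) :
    SQ z ((Cfsg.generalizedFittingSubgroup ↥(Subgroup.centralizer ({z} : Set G))).map (Subgroup.centralizer ({z} : Set G)).subtype) := by
  haveI : Fact (Nat.Prime 2) := ⟨Nat.prime_two⟩
  set C := Subgroup.centralizer ({z} : Set G) with hC
  set F := Cfsg.generalizedFittingSubgroup C with hF
  have hmemC : ∀ c : G, c ∈ C ↔ c * z = z * c := by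
    intro c
    rw [hC, Subgroup.mem_centralizer_singleton_iff]
  have hzC : z ∈ C := (hmemC z).2 rfl
  have hz2 : z * z = 1 := by
    have := pow_orderOf_eq_one z
    rw [hz, sq] at this
    exact this
  have hz1 : z ≠ 1 := by
    rintro rfl
    rw [orderOf_one] at hz
    omega
  -- z ∈ F
  have hzF : (⟨z, hzC⟩ : C) ∈ F := by
    have h1 : (⟨z, hzC⟩ : C) ∈ Subgroup.center C := by
      rw [Subgroup.mem_center_iff]
      rintro ⟨c, hc⟩
      exact Subtype.ext ((hmemC c).1 hc)
    have h2 : Subgroup.center C ≤ F := by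
      refine le_trans ?_ (le_sup_right : Cfsg.fittingSubgroup C ≤ _)
      refine le_sSup ⟨inferInstance, ?_⟩
      let _ : CommGroup (Subgroup.center C) :=
        { (inferInstance : Group (Subgroup.center C)) with mul_comm := mul_comm' }
      infer_instance
    exact h2 h1
  have hFn : F.Normal := inferInstance
  have h4' : ∀ q : F, q ^ 4 = 1 := by
    intro q
    have := h4 ((q : C) : G) ⟨q, q.2, rfl⟩
    exact Subtype.ext (Subtype.ext this)
  obtain ⟨hcen, hcomm, hsq⟩ := symp_four hQ h4' (z := ⟨⟨z, hzC⟩, hzF⟩)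
    (Subtype.ext (Subtype.ext hz2)) (fun h => hz1 (congrArg (fun x : F => ((x : C) : G)) h)) (by
      intro x
      exact Subtype.ext (Subtype.ext ((hmemC _).1 (x : C).2)))
  have hval : ∀ x y : F, x = y ↔ ((x : C) : G) = ((y : C) : G) := by
    intro x y
    constructor
    · rintro rfl; rfl
    · intro h; exact Subtype.ext (Subtype.ext h)
  have hFp := fstar_eq_pCore hQ.1
  have hcen' : ∀ x ∈ F.map C.subtype, (∀ y ∈ F.map C.subtype, y * x = x * y) → x * x = 1 → x = 1 ∨ x = z := by
    rintro _ ⟨x, hx, rfl⟩ h1 h2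
    rcases hcen ⟨x, hx⟩ (by
      intro y
      rw [hval]
      exact h1 _ ⟨y, y.2, rfl⟩) ((hval _ _).2 h2) with h3 | h3
    · left; exact (hval _ _).1 h3
    · right; exact (hval _ _).1 h3
  have hcomm' : ∀ x ∈ F.map C.subtype, ∀ y ∈ F.map C.subtype, x * y * x⁻¹ * y⁻¹ = 1 ∨ x * y * x⁻¹ * y⁻¹ = z := by
    rintro _ ⟨x, hx, rfl⟩ _ ⟨y, hy, rfl⟩
    rcases hcomm ⟨x, hx⟩ ⟨y, hy⟩ with h3 | h3
    · left; exact (hval _ _).1 h3
    · right; exact (hval _ _).1 h3
  -- z is in the Frattini subgroup
  have hzΦ : (⟨⟨z, hzC⟩, hzF⟩ : F) ∈ frattini F := by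
    apply Solv.commutator_le_frattini_of_pGroup hQ.1
    by_contra hcon
    rcases hcen' a ha (by
      intro y hy
      rcases hcomm' y hy a ha with h1 | h1
      · calc y * a = (y * a * y⁻¹ * a⁻¹) * (a * y) := by group
          _ = a * y := by rw [h1, one_mul]
      · exfalso
        apply hcon
        obtain ⟨a', ha', haa'⟩ := ha
        obtain ⟨y', hy', hyy'⟩ := hy
        have h2 : (⟨⟨z, hzC⟩, hzF⟩ : F) = ⁅(⟨y', hy'⟩ : F), ⟨a', ha'⟩⁆ := by
          rw [hval, commutatorElement_def]
          change z = (y' : G) * (a' : G) * (y' : G)⁻¹ * (a' : G)⁻¹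
          have e1 : (y' : G) = y := hyy'
          have e2 : (a' : G) = a := haa'
          rw [e1, e2]; exact h1.symm
        rw [h2]
        exact Subgroup.commutator_mem_commutator (Subgroup.mem_top _) (Subgroup.mem_top _)) ha2 with h1 | h1
    · exact ha1 h1
    · exact haz h1
  constructor
  · exact hz2
  · exact hz1
  · exact ⟨_, hzF, rfl⟩
  · rintro _ ⟨q, _, rfl⟩
    exact (hmemC _).1 q.2
  · rintro c hc _ ⟨q, hq, rfl⟩
    exact ⟨⟨c, (hmemC c).2 hc⟩ * q * ⟨c, (hmemC c).2 hc⟩⁻¹, hFn.conj_mem q hq _, rfl⟩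
  · exact hcomm'
  · rintro _ ⟨x, hx, rfl⟩
    rcases hsq ⟨x, hx⟩ with h3 | h3
    · left; exact (hval _ _).1 h3
    · right; exact (hval _ _).1 h3
  · exact hcen'
  · intro c hc hact
    have hcC : c ∈ C := (hmemC c).2 hc
    have hmem : (⟨c, hcC⟩ : C) ∈ Cfsg.pCore 2 C := by
      apply TIRad.actKer_le (p := 2) hFp
      rw [← hFp]
      intro q hq
      rcases hact (q : G) ⟨q, hq, rfl⟩ with h1 | h1
      · have : (⟨c, hcC⟩ : C) * q * (⟨c, hcC⟩ : C)⁻¹ * q⁻¹ = 1 := Subtype.ext h1
        rw [this]; exact one_mem _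
      · have : (⟨c, hcC⟩ : C) * q * (⟨c, hcC⟩ : C)⁻¹ * q⁻¹ = ⟨z, hzC⟩ := Subtype.ext h1
        rw [this]
        exact ⟨_, hzΦ, rfl⟩
    refine ⟨⟨c, hcC⟩, ?_, rfl⟩
    rw [hF, hFp]; exact hmem
  · intro h8 c hc
    have hcC : c ∈ C := (hmemC c).2 hc
    refine ⟨⟨c, hcC⟩, ?_, rfl⟩
    have htop : IsPGroup 2 (⊤ : Subgroup C) := by
      intro x
      refine ⟨3, ?_⟩
      apply Subtype.ext
      apply Subtype.ext
      have := h8 ((x : C) : G) ((hmemC _).1 (x : C).2)
      simpa using this
    have h1 : (⊤ : Subgroup C) ≤ Cfsg.pCore 2 C := Solv.le_pCore inferInstance htop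
    rw [hF, hFp]
    exact h1 trivial

/-- the action on the four-group -/
theorem action {G : Type*} [Group G] {z a : G} {Q Q' : Subgroup G} (h : SQ z Q) (h' : SQ a Q') (haQ : a ∈ Q) (hzQ' : z ∈ Q')
    (hne : a ≠ z) (u : G) (hu : u ∈ Subgroup.closure ({z, a} : Set G)) (v : G) (hv : v ∈ Subgroup.closure ({z, a} : Set G))
    (hu1 : u ≠ 1) (hv1 : v ≠ 1) (huv : u ≠ v) : ∃ x ∈ Q ⊔ Q', x * z * x⁻¹ = u ∧ x * a * x⁻¹ = v := by
  obtain ⟨x, hx, hxa⟩ := h.exists_swap haQ h'.z2 h'.z1 hne
  obtain ⟨w, hw, hwz⟩ := h'.exists_swap hzQ' h.z2 h.z1 hne.symm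
  have haz : a * z = z * a := h.cz a haQ
  have hxz : x * z * x⁻¹ = z := by rw [h.cz x hx]; group
  have hwa : w * a * w⁻¹ = a := by rw [h'.cz w hw]; group
  have hxQ : x ∈ Q ⊔ Q' := Subgroup.mem_sup_left hx
  have hwQ : w ∈ Q ⊔ Q' := Subgroup.mem_sup_right hw
  have hmem : ∀ u ∈ Subgroup.closure ({z, a} : Set G), u = 1 ∨ u = z ∨ u = a ∨ u = a * z := by
    intro u hu
    let K : Subgroup G :=
      { carrier := {u | u = 1 ∨ u = z ∨ u = a ∨ u = a * z}
        one_mem' := Or.inl rfl
        mul_mem' := by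
          have e1 : z * (a * z) = a := by
            calc z * (a * z) = (z * a) * z := by group
              _ = a * (z * z) := by rw [← haz]; group
              _ = a := by rw [h.z2, mul_one]
          have e2 : a * (a * z) = z := by
            calc a * (a * z) = (a * a) * z := by group
              _ = z := by rw [h'.z2, one_mul]
          have e3 : a * z * z = a := by rw [mul_assoc, h.z2, mul_one]
          have e4 : a * z * a = z := by
            calc a * z * a = a * (z * a) := by group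
              _ = z := by rw [← haz, e2]
          have e5 : a * z * (a * z) = 1 := by
            calc a * z * (a * z) = (a * z * a) * z := by group
              _ = 1 := by rw [e4, h.z2]
          rintro x y (rfl | rfl | rfl | rfl) (rfl | rfl | rfl | rfl)
          · left; simp
          · right; left; simp
          · right; right; left; simp
          · right; right; right; simp
          · right; left; simp
          · left; exact h.z2
          · right; right; right; exact haz.symm
          · right; right; left; exact e1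
          · right; right; left; simp
          · right; right; right; rfl
          · left; exact h'.z2
          · right; left; exact e2
          · right; right; right; simp
          · right; right; left; exact e3
          · right; left; exact e4
          · left; exact e5
        inv_mem' := by
          have i1 : z⁻¹ = z := by rw [inv_eq_iff_mul_eq_one]; exact h.z2
          have i2 : a⁻¹ = a := by rw [inv_eq_iff_mul_eq_one]; exact h'.z2
          rintro x (rfl | rfl | rfl | rfl)
          · left; simp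
          · right; left; exact i1
          · right; right; left; exact i2
          · right; right; right; rw [mul_inv_rev, i1, i2]; exact haz.symm }
    have hK : Subgroup.closure ({z, a} : Set G) ≤ K := by
      rw [Subgroup.closure_le]
      rintro y (rfl | rfl)
      · exact Or.inr (Or.inl rfl)
      · exact Or.inr (Or.inr (Or.inl rfl))
    exact hK hu
  -- basic conjugations
  have hxaz : x * (a * z) * x⁻¹ = a := by
    calc x * (a * z) * x⁻¹ = (x * a * x⁻¹) * (x * z * x⁻¹) := by group
      _ = a * z * z := by rw [hxa, hxz]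
      _ = a := by rw [mul_assoc, h.z2, mul_one]
  have hwaz : w * (a * z) * w⁻¹ = z := by
    calc w * (a * z) * w⁻¹ = (w * a * w⁻¹) * (w * z * w⁻¹) := by group
      _ = a * (z * a) := by rw [hwa, hwz]
      _ = a * a * z := by rw [← haz]; group
      _ = z := by rw [h'.z2, one_mul]
  have hwz' : w * z * w⁻¹ = a * z := by rw [hwz, haz]
  rcases hmem u hu with rfl | rfl | rfl | rfl
  · exact absurd rfl hu1
  · rcases hmem v hv with rfl | rfl | rfl | rfl
    · exact absurd rfl hv1
    · exact absurd rfl huv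
    · exact ⟨1, one_mem _, by simp, by simp⟩
    · exact ⟨x, hxQ, hxz, hxa⟩
  · rcases hmem v hv with rfl | rfl | rfl | rfl
    · exact absurd rfl hv1
    · refine ⟨x * w * x, mul_mem (mul_mem hxQ hwQ) hxQ, ?_, ?_⟩
      · calc x * w * x * v * (x * w * x)⁻¹ = x * (w * (x * v * x⁻¹) * w⁻¹) * x⁻¹ := by group
          _ = u := by rw [hxz, hwz', hxaz]
      · calc x * w * x * u * (x * w * x)⁻¹ = x * (w * (x * u * x⁻¹) * w⁻¹) * x⁻¹ := by group
          _ = v := by rw [hxa, hwaz, hxz]
    · exact absurd rfl huv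
    · refine ⟨x * w, mul_mem hxQ hwQ, ?_, ?_⟩
      · calc x * w * z * (x * w)⁻¹ = x * (w * z * w⁻¹) * x⁻¹ := by group
          _ = u := by rw [hwz', hxaz]
      · calc x * w * u * (x * w)⁻¹ = x * (w * u * w⁻¹) * x⁻¹ := by group
          _ = u * z := by rw [hwa, hxa]
  · rcases hmem v hv with rfl | rfl | rfl | rfl
    · exact absurd rfl hv1
    · refine ⟨w * x, mul_mem hwQ hxQ, ?_, ?_⟩
      · calc w * x * v * (w * x)⁻¹ = w * (x * v * x⁻¹) * w⁻¹ := by group
          _ = a * v := by rw [hxz, hwz']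
      · calc w * x * a * (w * x)⁻¹ = w * (x * a * x⁻¹) * w⁻¹ := by group
          _ = v := by rw [hxa, hwaz]
    · exact ⟨w, hwQ, hwz', hwa⟩
    · exact absurd rfl huv

end Cfsg.Agent.H64.SyI
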